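import Mathlib
import Cfsg.Prelude.Def_OddOrderLocal
import Cfsg.Agent.Lib.OddOrder.Base
import Cfsg.Agent.Lib.OddOrder.Control
import Cfsg.Agent.Lib.Basic.ElementFusion
import Cfsg.Agent.Lib.PGroup.Regular
import Cfsg.Agent.Lib.Transfer.Basic
import Cfsg.Agent.Lib.Nilpotent.FittingHall
import Cfsg.Agent.S1448

/-!
# Consequences of fusion control: S1411 and S1412 from `LocalLen`
-/

set_option autoImplicit false
set_option linter.unusedSectionVars false

namespace Cfsg.Agent.Lib.OddOrder.Control

open Cfsg Subgroup Cfsg.Agent.Lib.OddOrder.Base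
open scoped commutatorElement

section focal

variable {G : Type*} [Group G] [Finite G] {p : ℕ} [hp : Fact p.Prime]

theorem residual_eq_top (hG : IsMinSimpleOddOrder G) : pResidual p G = ⊤ := by
  rcases normal_eq hG (inferInstance : (pResidual p G).Normal) with h | h
  · exfalso
    have h1 := Cfsg.Agent.Lib.Transfer.Basic.isPGroup_quotient_pResidual (p := p) (G := G)
    have h2 : IsPGroup p G := by
      intro x
      obtain ⟨k, hk⟩ := h1 (x : G ⧸ pResidual p G)
      refine ⟨k, ?_⟩
      rw [← QuotientGroup.mk_pow, QuotientGroup.eq_one_iff, h, mem_bot] at hk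
      exact hk
    exact pgroup_ne_top hG (h2.to_subgroup ⊤) rfl
  · exact h

/-- A subgroup containing all `⁅x, w⁆` with `x ∈ P`, `w ∈ N_G(P)` contains `P`. -/
theorem sylow_le_of_forall_comm (hG : IsMinSimpleOddOrder G) (hN : LocalLen p G) (P : Sylow p G)
    {K : Subgroup G}
    (hK : ∀ x ∈ (P : Subgroup G), ∀ w ∈ normalizer ((P : Subgroup G) : Set G), ⁅x, w⁆ ∈ K) :
    (P : Subgroup G) ≤ K := by
  have hfoc : (P : Subgroup G).focalSubgroupOf = ⊤ :=
    Cfsg.Agent.Lib.Basic.ElementFusion.focalSubgroupOf_eq_top_of_pResidual P (residual_eq_top hG)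
  have key : ∀ y : (P : Subgroup G),
      y ∈ closure {g : (P : Subgroup G) | ∃ x ∈ (P : Subgroup G), ∃ u : G, (g : G) = ⁅x, u⁆} →
      (y : G) ∈ K := by
    intro y hy
    induction hy using closure_induction with
    | mem y hy =>
      obtain ⟨x, hx, u, hu⟩ := hy
      rw [hu]
      have h1 : u * x⁻¹ * u⁻¹ ∈ (P : Subgroup G) := by
        have h2 : x⁻¹ * ⁅x, u⁆ ∈ (P : Subgroup G) := by
          rw [← hu]
          exact mul_mem (inv_mem hx) y.2
        have e : x⁻¹ * ⁅x, u⁆ = u * x⁻¹ * u⁻¹ := by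
          rw [commutatorElement_def]; group
        rwa [e] at h2
      obtain ⟨w, hw, hwe⟩ := fusion_element hN P (inv_mem hx) h1
      have e : ⁅x, u⁆ = ⁅x, w⁆ := by
        simp only [commutatorElement_def]
        calc x * u * x⁻¹ * u⁻¹ = x * (u * x⁻¹ * u⁻¹) := by group
          _ = x * (w * x⁻¹ * w⁻¹) := by rw [hwe]
          _ = x * w * x⁻¹ * w⁻¹ := by group
      rw [e]
      exact hK x hx w hw
    | one => exact one_mem _
    | mul a b _ _ ha hb => exact mul_mem ha hb
    | inv a _ ha => exact inv_mem ha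
  intro z hz
  have hz' : (⟨z, hz⟩ : (P : Subgroup G)) ∈ (P : Subgroup G).focalSubgroupOf := by rw [hfoc]; trivial
  rw [Subgroup.focalSubgroupOf_eq_closure] at hz'
  exact key _ hz'

/-- **S1411** from `LocalLen`. -/
theorem S1411_core (hG : IsMinSimpleOddOrder G) (hN : LocalLen p G) (P : Sylow p G)
    (V : Subgroup G) (hV : IsComplIn (P : Subgroup G) V (normalizer ((P : Subgroup G) : Set G))) :
    (P : Subgroup G) = ⁅(P : Subgroup G), V⁆ ∧
      (P : Subgroup G) ≤ ⁅normalizer ((P : Subgroup G) : Set G), normalizer ((P : Subgroup G) : Set G)⁆ := by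
  constructor
  · -- `⁅P, V⁆ ≤ P`
    have hle : ⁅(P : Subgroup G), V⁆ ≤ (P : Subgroup G) := by
      rw [Subgroup.commutator_le]
      intro x hx v hv
      rw [commutatorElement_def]
      have := (Subgroup.mem_normalizer_iff.mp (hV.2.1 hv) _).mp (inv_mem hx)
      have e : x * v * x⁻¹ * v⁻¹ = x * (v * x⁻¹ * v⁻¹) := by group
      rw [e]
      exact mul_mem hx this
    apply le_antisymm _ hle
    -- `P ≤ ⁅P, V⁆ ⊔ ⁅P, P⁆`
    have h1 : (P : Subgroup G) ≤ ⁅(P : Subgroup G), V⁆ ⊔ ⁅(P : Subgroup G), (P : Subgroup G)⁆ := by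
      apply sylow_le_of_forall_comm hG hN P
      intro x hx w hw
      obtain ⟨a, ha, v, hv, rfl⟩ := hV.2.2.2 w hw
      set y : G := v * x⁻¹ * v⁻¹ with hy
      have hyP : y ∈ (P : Subgroup G) := (Subgroup.mem_normalizer_iff.mp (hV.2.1 hv) _).mp (inv_mem hx)
      have e : ⁅x, a * v⁆ = ⁅x, v⁆ * ⁅y⁻¹, a⁆ := by
        simp only [commutatorElement_def, hy]
        group
      rw [e]
      exact mul_mem
        (Subgroup.mem_sup_left (Subgroup.commutator_mem_commutator hx hv))
        (Subgroup.mem_sup_right (Subgroup.commutator_mem_commutator (inv_mem hyP) ha))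
    -- Frattini argument in `P`
    let K : Subgroup (P : Subgroup G) := (⁅(P : Subgroup G), V⁆).subgroupOf (P : Subgroup G)
    have h2 : K ⊔ frattini (P : Subgroup G) = ⊤ := by
      rw [eq_top_iff]
      rintro ⟨z, hz⟩ -
      have h3 : ⁅(P : Subgroup G), V⁆ ⊔ ⁅(P : Subgroup G), (P : Subgroup G)⁆ ≤
          (K ⊔ frattini (P : Subgroup G)).map (P : Subgroup G).subtype := by
        rw [Subgroup.map_sup]
        apply sup_le_sup
        · rw [Subgroup.map_subgroupOf_eq_of_le hle]
        · rw [← Subgroup.map_subtype_commutator]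
          exact Subgroup.map_mono
            (Cfsg.Agent.Lib.PGroup.Regular.commutator_le_frattini_of_isPGroup P.isPGroup')
      obtain ⟨z', hz', he⟩ := h3 (h1 hz)
      have : z' = ⟨z, hz⟩ := Subtype.ext he
      rwa [← this]
    have h4 : K = ⊤ := frattini_nongenerating h2
    intro z hz
    have : (⟨z, hz⟩ : (P : Subgroup G)) ∈ K := by rw [h4]; trivial
    exact Subgroup.mem_subgroupOf.mp this
  · apply sylow_le_of_forall_comm hG hN P
    intro x hx w hw
    exact Subgroup.commutator_mem_commutator (Subgroup.le_normalizer hx) hw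

end focal

section S1412

variable {G : Type*} [Group G] [Finite G] {p : ℕ} [hp : Fact p.Prime]

/-- In a non-abelian group of order `p³` the centre is the derived subgroup. -/
theorem commutator_eq_center_of_card {E : Type*} [Group E] [Finite E] (hc : Nat.card E = p ^ 3)
    (hna : ¬ IsMulCommutative E) : commutator E = center E := by
  have hE : IsPGroup p E := IsPGroup.of_card hc
  have hntE : Nontrivial E := by
    rw [← Finite.one_lt_card_iff_nontrivial, hc]
    exact Nat.one_lt_pow (by norm_num) hp.out.one_lt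
  have hZnt : Nontrivial (center E) := hE.center_nontrivial
  have hNC : ¬ ∀ a b : E, a * b = b * a := fun h => hna ⟨⟨fun a b => h a b⟩⟩
  have hcZ : Nat.card (center E) ∣ p ^ 3 := hc ▸ Subgroup.card_subgroup_dvd_card _
  obtain ⟨k, hk3, hkc⟩ := (Nat.dvd_prime_pow hp.out).mp hcZ
  have hidx : Nat.card (E ⧸ center E) * Nat.card (center E) = p ^ 3 := by
    rw [← hc]
    exact (Subgroup.card_eq_card_quotient_mul_card_subgroup (center E)).symm
  have hpp := hp.out.pos
  have hk : k = 1 := by
    interval_cases k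
    · exfalso
      rw [pow_zero] at hkc
      have := Finite.one_lt_card_iff_nontrivial.mpr hZnt
      omega
    · rfl
    · exfalso
      rw [hkc] at hidx
      have h1 : Nat.card (E ⧸ center E) = p := by
        have : Nat.card (E ⧸ center E) * p ^ 2 = p * p ^ 2 := by rw [hidx]; ring
        exact Nat.eq_of_mul_eq_mul_right (by positivity) this
      haveI : IsCyclic (E ⧸ center E) := isCyclic_of_prime_card h1
      apply hNC
      have := MonoidHom.isMulCommutative_of_isCyclic_of_ker_le_center (QuotientGroup.mk' (center E)) (by simp)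
      exact fun a b => this.is_comm.comm a b
    · exfalso
      have h1 : Nat.card (center E) = Nat.card E := by rw [hkc, hc]
      have h2 : center E = ⊤ := Subgroup.eq_top_of_card_eq _ h1
      apply hNC
      intro a b
      have : a ∈ center E := by rw [h2]; trivial
      exact (Subgroup.mem_center_iff.mp this b).symm
  subst hk
  have hq : Nat.card (E ⧸ center E) = p ^ 2 := by
    rw [hkc] at hidx
    have : Nat.card (E ⧸ center E) * p ^ 1 = p ^ 2 * p ^ 1 := by rw [hidx]; ring
    exact Nat.eq_of_mul_eq_mul_right (by positivity) this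
  have hcommI := IsPGroup.isMulCommutative_of_card_eq_prime_sq hq
  have hcomm : ∀ a b : E ⧸ center E, a * b = b * a := fun a b => hcommI.is_comm.comm a b
  have hle : commutator E ≤ center E := by
    rw [commutator_def, Subgroup.commutator_le]
    intro a _ b _
    have h1 := hcomm (a : E ⧸ center E) (b : E ⧸ center E)
    have h2 : ((⁅a, b⁆ : E) : E ⧸ center E) = 1 := by
      rw [commutatorElement_def, QuotientGroup.mk_mul, QuotientGroup.mk_mul, QuotientGroup.mk_mul,
        QuotientGroup.mk_inv, QuotientGroup.mk_inv, h1]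
      group
    exact (QuotientGroup.eq_one_iff _).mp h2
  have hne : commutator E ≠ ⊥ := by
    intro h
    apply hNC
    intro a b
    have h1 : ⁅a, b⁆ ∈ commutator E := by
      rw [commutator_def]
      exact Subgroup.commutator_mem_commutator (mem_top _) (mem_top _)
    rw [h, Subgroup.mem_bot, commutatorElement_eq_one_iff_mul_comm] at h1
    exact h1
  apply Subgroup.eq_of_le_of_card_ge hle
  have hd : Nat.card (commutator E) ∣ p ^ 1 := hkc ▸ Subgroup.card_dvd_of_le hle
  obtain ⟨j, hj, hjc⟩ := (Nat.dvd_prime_pow hp.out).mp hd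
  interval_cases j
  · exfalso
    rw [pow_zero] at hjc
    exact hne ((Subgroup.card_eq_one).mp hjc)
  · rw [hjc, hkc]

/-- Existence of a complement of a Sylow subgroup in its normalizer. -/
theorem exists_complement (P : Sylow p G) :
    ∃ V : Subgroup G, IsComplIn (P : Subgroup G) V (normalizer ((P : Subgroup G) : Set G)) := by
  set N := normalizer ((P : Subgroup G) : Set G) with hN
  let P' : Subgroup N := (P : Subgroup G).subgroupOf N
  haveI hP'n : P'.Normal := by
    refine ⟨fun n hn g => ?_⟩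
    rw [Subgroup.mem_subgroupOf] at hn ⊢
    have := (Subgroup.mem_normalizer_iff.mp g.2 _).mp hn
    simpa using this
  have hcard : Nat.card P' = Nat.card (P : Subgroup G) := by
    exact Nat.card_congr (Subgroup.subgroupOfEquivOfLe Subgroup.le_normalizer).toEquiv
  have hcop : (Nat.card P').Coprime P'.index := by
    rw [hcard]
    have h1 : P'.index ∣ (P : Subgroup G).index :=
      ⟨N.index, (Subgroup.relIndex_mul_index Subgroup.le_normalizer).symm⟩
    obtain ⟨k, hk⟩ := IsPGroup.iff_card.mp P.2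
    rw [hk]
    apply Nat.Coprime.pow_left
    rw [Nat.Prime.coprime_iff_not_dvd hp.out]
    exact fun h => P.not_dvd_index (h.trans h1)
  obtain ⟨K, hK⟩ := Subgroup.exists_right_complement'_of_coprime hcop
  refine ⟨K.map N.subtype, Subgroup.le_normalizer, Subgroup.map_subtype_le _, ?_, ?_⟩
  · rw [eq_bot_iff]
    rintro x ⟨hx, ⟨k, hk, rfl⟩⟩
    have h1 : k ∈ P' := Subgroup.mem_subgroupOf.mpr hx
    have := hK.disjoint.le_bot ⟨h1, hk⟩
    rw [Subgroup.mem_bot] at this
    simp [this]
  · intro m hm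
    obtain ⟨⟨a, b⟩, hab⟩ := hK.2 ⟨m, hm⟩
    refine ⟨(a : N), Subgroup.mem_subgroupOf.mp a.2, (b : N), ⟨b, b.2, rfl⟩, ?_⟩
    exact congrArg Subtype.val hab.symm

/-- **S1412** from `LocalLen`. -/
theorem S1412_core (hG : IsMinSimpleOddOrder G) (hN : LocalLen p G) (P : Sylow p G)
    (hr : Cfsg.PRankLE p 2 (P : Subgroup G)) :
    IsMulCommutative (P : Subgroup G) ∨ ∃ P₁ P₂ : Subgroup G, P₁ ⊔ P₂ = (P : Subgroup G) ∧ (∀ a ∈ P₁, ∀ b ∈ P₂, a * b = b * a) ∧
        ¬ IsMulCommutative P₁ ∧ Nat.card P₁ = p ^ 3 ∧ Monoid.exponent P₁ = p ∧ IsCyclic P₂ ∧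
        Subgroup.closure {x : G | x ∈ P₂ ∧ x ^ p = 1} = P₁ ⊓ Subgroup.centralizer (P₁ : Set G) := by
  by_cases hP1 : (P : Subgroup G) = ⊥
  · left
    rw [hP1]
    exact ⟨⟨fun a b => Subsingleton.elim _ _⟩⟩
  obtain ⟨V, hV⟩ := exists_complement P
  obtain ⟨hPV, -⟩ := S1411_core hG hN P V hV
  have hp2 : p ≠ 2 := by
    have hd : p ∣ Nat.card (P : Subgroup G) := by
      obtain ⟨k, hk⟩ := IsPGroup.iff_card.mp P.2
      rcases k with _ | k
      · exfalso
        rw [pow_zero] at hk
        exact hP1 (Subgroup.card_eq_one.mp hk)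
      · rw [hk]; exact dvd_pow_self p (Nat.succ_ne_zero k)
    exact prime_odd_of_subgroup hG hd
  have hVN : V ≤ normalizer ((P : Subgroup G) : Set G) := hV.2.1
  have hVcop : (Nat.card V).Coprime p := by
    have h1 := Cfsg.Agent.Lib.Nilpotent.FittingHall.card_eq_of_isComplIn hV
    have h2 : Nat.card (normalizer ((P : Subgroup G) : Set G)) ∣ Nat.card G :=
      Subgroup.card_subgroup_dvd_card _
    have h3 : Nat.card G = Nat.card (P : Subgroup G) * (P : Subgroup G).index :=
      (Subgroup.card_mul_index _).symm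
    rw [h1, h3] at h2
    have h4 : Nat.card V ∣ (P : Subgroup G).index :=
      Nat.dvd_of_mul_dvd_mul_left Nat.card_pos h2
    rw [Nat.coprime_comm, Nat.Prime.coprime_iff_not_dvd hp.out]
    exact fun h => P.not_dvd_index (h.trans h4)
  have hVodd : Odd (Nat.card V) := odd_card_subgroup hG V
  obtain ⟨-, hres⟩ := Cfsg.Agent.S1448.result p hp2 (P : Subgroup G) V P.2 hP1 hr hVN hVcop hVodd hPV.symm
  rcases hres with h | ⟨R₁, R₂, h1, h2, h3, h4, h5, h6, h7⟩
  · exact Or.inl h
  · right
    refine ⟨R₁, R₂, h1, h2, h3, h4, h5, h6, ?_⟩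
    rw [h7]
    have hcR₁ : Nat.card R₁ = p ^ 3 := h4
    have := commutator_eq_center_of_card hcR₁ h3
    rw [← Subgroup.map_subtype_commutator, this]
    ext x
    constructor
    · rintro ⟨z, hz, rfl⟩
      refine ⟨z.2, ?_⟩
      show (z : G) ∈ Subgroup.centralizer (R₁ : Set G)
      rw [Subgroup.mem_centralizer_iff]
      intro y hy
      have := Subgroup.mem_center_iff.mp (show z ∈ center R₁ from hz) ⟨y, hy⟩
      exact congrArg Subtype.val this
    · rintro ⟨hx, hxc⟩
      refine ⟨⟨x, hx⟩, ?_, rfl⟩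
      show (⟨x, hx⟩ : R₁) ∈ center R₁
      rw [Subgroup.mem_center_iff]
      intro y
      apply Subtype.ext
      exact (Subgroup.mem_centralizer_iff.mp (show x ∈ Subgroup.centralizer (R₁ : Set G) from hxc)) y y.2

end S1412

end Cfsg.Agent.Lib.OddOrder.Control

namespace Cfsg.Agent.Lib.OddOrder.Control

open Cfsg Subgroup Cfsg.Agent.Lib.OddOrder.Base

variable {G : Type*} [Group G] [Finite G] {p : ℕ} [hp : Fact p.Prime]

/-- `LocalLen` from the statement of S1410. -/
theorem localLen_of_forall (hG : IsMinSimpleOddOrder G)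
    (h : ∀ H : Subgroup G, H ≠ ⊤ → PLengthLE p 1 H) : LocalLen p G := fun T hT hT1 =>
  h _ (normalizer_ne_top hG hT1 (pgroup_ne_top hG hT))

/-- **S1413** from `LocalLen`. -/
theorem S1413_core (hN : LocalLen p G) (P : Sylow p G) :
    (∀ (Q : Subgroup G) (x : G), Q ≤ (P : Subgroup G) → Q.map (MulAut.conj x).toMonoidHom ≤ (P : Subgroup G) →
        ∃ y ∈ Subgroup.normalizer ((P : Subgroup G) : Set G), Q.map (MulAut.conj x).toMonoidHom = Q.map (MulAut.conj y).toMonoidHom) ∧
      (∀ Q : Subgroup G, Q ≤ (P : Subgroup G) →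
        ¬ p ∣ ((P : Subgroup G) ⊓ Subgroup.normalizer (Q : Set G)).relIndex (Subgroup.normalizer (Q : Set G))) ∧
      (∀ (R Q : Subgroup G), IsPGroup p R → Q ≤ (P : Subgroup G) ⊓ R →
        Subgroup.normalizer ((P : Subgroup G) : Set G) ≤ Subgroup.normalizer (Q : Set G) →
        Subgroup.normalizer (R : Set G) ≤ Subgroup.normalizer (Q : Set G)) :=
  ⟨fun _ _ hQ hx => map_conj_eq hN P hQ hx, fun _ hQ => not_dvd_relIndex hN P hQ,
    fun _ _ hR hQ hNQ => normalizer_le_normalizer hN P hR hQ hNQ⟩

end Cfsg.Agent.Lib.OddOrder.Control
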