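/-
The Hall-Higman type lemma of `HHGroup`, for every prime including `2`: a `p`-subgroup invariant under
an element of prime order `r` without fixed vectors is centralized, unless `p = 2`, `r` is a Fermat
prime, and the subgroup is not abelian.
-/
import Mathlib
import Cfsg.Agent.Lib.OddOrder.HHGroup

set_option autoImplicit false
set_option linter.style.longLine false
set_option linter.unusedSectionVars false
set_option maxHeartbeats 1000000

namespace Cfsg.Agent.Lib.OddOrder.HHTwo

open Module Cfsg.Agent.Lib.OddOrder.HHCore Cfsg.Agent.Lib.OddOrder.HHGroup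
open Cfsg.Agent.Lib.Coprime Cfsg.Agent.Lib
open scoped commutatorElement

variable {K : Type*} [Field K] {V : Type*} [AddCommGroup V] [Module K V]
variable {Γ : Type*} [Group Γ]

/-- The Hall–Higman type conclusion over an algebraically closed field: `x` of prime order without
nonzero fixed vectors centralizes every `x`-invariant `p`-subgroup, `p` odd. -/
theorem centralizes_of_no_fixed_exc [Finite Γ] [IsAlgClosed K] [FiniteDimensional K V] (ρ : Γ →* End K V)
    (hρ : Function.Injective ρ) {p r : ℕ} [hp : Fact p.Prime] (hr : r.Prime) (hpr : p ≠ r)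
    (hpK : (p : K) ≠ 0) (hrK : (r : K) ≠ 0) (x : Γ) (hx : x ^ r = 1) (hfix : ∀ v, ρ x v = v → v = 0)
    (Y : Subgroup Γ) (hYp : IsPGroup p Y) (hxY : ∀ y ∈ Y, x * y * x⁻¹ ∈ Y)
    (hexc : p = 2 → (∃ n : ℕ, r = 2 ^ n + 1) → ∀ a ∈ Y, ∀ b ∈ Y, a * b = b * a) :
    ∀ y ∈ Y, x * y * x⁻¹ = y := by
  classical
  induction Y using WellFoundedLT.induction with
  | _ Y IH =>
  by_contra hcon
  push Not at hcon
  obtain ⟨y₀, hy₀, hy₀ne⟩ := hcon
  letI : Fintype Y := Fintype.ofFinite _
  set σ : MulAut Y := conjAutOf Y x hxY with hσ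
  have hσr : σ ^ r = 1 := conjAutOf_pow_eq_one Y x hxY hx
  have hσapp : ∀ y : Y, ((σ y : Y) : Γ) = x * y * x⁻¹ := fun y => rfl
  have hxr1 : x⁻¹ = x ^ (r - 1) := by
    have h1 : x ^ (r - 1) * x = 1 := by
      rw [← pow_succ, Nat.sub_add_cancel hr.one_lt.le, hx]
    exact inv_eq_of_mul_eq_one_left h1
  -- proper invariant subgroups are fixed
  have hIH : ∀ Z : Subgroup Y, Z ≠ ⊤ → (∀ z ∈ Z, σ z ∈ Z) → ∀ z ∈ Z, σ z = z := by
    intro Z hZ hZσ z hz
    have hlt : Z.map Y.subtype < Y := by
      refine lt_of_le_of_ne (by rintro _ ⟨a, -, rfl⟩; exact a.2) ?_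
      intro h
      apply hZ
      rw [eq_top_iff]
      intro a _
      have : (a : Γ) ∈ Z.map Y.subtype := by rw [h]; exact a.2
      obtain ⟨b, hb, hba⟩ := this
      have : b = a := Subtype.ext hba
      rwa [← this]
    have hp' : IsPGroup p (Z.map Y.subtype) := by
      refine IsPGroup.of_injective (ϕ := ((Z.map Y.subtype).inclusion hlt.le)) hYp ?_
      exact Subgroup.inclusion_injective _
    have hinv : ∀ a ∈ Z.map Y.subtype, x * a * x⁻¹ ∈ Z.map Y.subtype := by
      rintro _ ⟨a, ha, rfl⟩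
      exact ⟨σ a, hZσ a ha, rfl⟩
    have := IH _ hlt hp' hinv (fun h2 hf a ha b hb => hexc h2 hf a (hlt.le ha) b (hlt.le hb)) (z : Γ) ⟨z, hz, rfl⟩
    exact Subtype.ext this
  have hcardσ : (Nat.card (Subgroup.zpowers σ)).Coprime p := by
    rw [Nat.card_zpowers]
    have h1 : orderOf σ ∣ r := orderOf_dvd_of_pow_eq_one hσr
    exact Nat.Coprime.coprime_dvd_left h1 ((Nat.coprime_primes hr hp.out).mpr hpr.symm)
  let act : Subgroup.zpowers σ →* MulAut Y := (Subgroup.zpowers σ).subtype
  have hactapp : ∀ (b : Subgroup.zpowers σ) (g : Y), act b g = (b : MulAut Y) g := fun _ _ => rfl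
  have hbσ : (⟨σ, Subgroup.mem_zpowers σ⟩ : Subgroup.zpowers σ) ∈ (⊤ : Subgroup (Subgroup.zpowers σ)) :=
    Subgroup.mem_top _
  -- `[Y, x] = Y`
  have hgen : AutAction.commClosure act = ⊤ := by
    by_contra hne
    have hinv : ∀ z ∈ AutAction.commClosure act, σ z ∈ AutAction.commClosure act := by
      intro z hz
      induction hz using Subgroup.closure_induction with
      | mem w hw =>
        obtain ⟨g, b, rfl⟩ := hw
        apply Subgroup.subset_closure
        refine ⟨σ g, b, ?_⟩
        obtain ⟨b, k, rfl⟩ := b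
        have hcomm : σ ((σ ^ k) g) = (σ ^ k) (σ g) := by
          rw [← MulAut.mul_apply, ← MulAut.mul_apply, ← zpow_one_add, ← zpow_add_one, add_comm]
        simp only [map_mul, map_inv, hactapp]
        congr 1
      | one => simp
      | mul a b _ _ ha hb => rw [map_mul]; exact mul_mem ha hb
      | inv a _ ha => rw [map_inv]; exact inv_mem ha
    apply hy₀ne
    have hfixed := hIH _ hne hinv
    have h1 : ∀ g : Y, σ (g⁻¹ * σ g) = g⁻¹ * σ g := fun g =>
      hfixed _ (Subgroup.subset_closure ⟨g, ⟨σ, Subgroup.mem_zpowers σ⟩, rfl⟩)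
    have h2 := AutAction.fixed_of_diff_fixed hYp act ⟨σ, Subgroup.mem_zpowers σ⟩ (by
      rw [Subgroup.orderOf_mk]
      rw [Nat.card_zpowers] at hcardσ
      exact hcardσ) ⟨y₀, hy₀⟩ (h1 _)
    exact congrArg Subtype.val h2
  -- the fixed subgroup
  let C : Subgroup Y :=
    { carrier := {c | σ c = c}
      one_mem' := map_one σ
      mul_mem' := by
        intro a b ha hb
        show σ (a * b) = a * b
        rw [map_mul, show σ a = a from ha, show σ b = b from hb]
      inv_mem' := by
        intro a ha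
        show σ a⁻¹ = a⁻¹
        rw [map_inv, show σ a = a from ha] }
  have hCmem : ∀ c, c ∈ C ↔ σ c = c := fun _ => Iff.rfl
  have hCfix : ∀ c ∈ C, ∀ b : Subgroup.zpowers σ, act b c = c := by
    rintro c hc ⟨_, k, rfl⟩
    show (σ ^ k) c = c
    have hmem : (σ ^ k) c = c := by
      have h1 : ∀ n : ℕ, (σ ^ n) c = c := by
        intro n
        induction n with
        | zero => rfl
        | succ n ih =>
          rw [pow_succ', MulAut.mul_apply, ih]
          exact hc
      have h2 : ∀ n : ℕ, (σ ^ (-(n : ℤ))) c = c := by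
        intro n
        rw [zpow_neg, zpow_natCast]
        calc (σ ^ n)⁻¹ c = (σ ^ n)⁻¹ ((σ ^ n) c) := by rw [h1 n]
          _ = c := by rw [← MulAut.mul_apply, inv_mul_cancel]; rfl
      obtain ⟨n, rfl | rfl⟩ := Int.eq_nat_or_neg k
      · rw [zpow_natCast]; exact h1 n
      · exact h2 n
    exact hmem
  have hcommproper : commutator Y ≠ ⊤ := by
    intro h
    haveI : Nontrivial Y := ⟨⟨y₀, hy₀⟩, 1, fun h1 => by
      have h2 : y₀ = 1 := congrArg Subtype.val h1
      subst h2
      simp at hy₀ne⟩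
    have hnil : Group.IsNilpotent Y := hYp.isNilpotent
    have := Three.commutator_ne_of_isNilpotent (T := ⊤) (U := ⊤)
      (hYp.to_subgroup ⊤).isNilpotent le_rfl top_ne_bot
    exact this (by rw [commutator_def] at h; exact h)
  have hcomminv : ∀ z ∈ commutator Y, σ z ∈ commutator Y := by
    intro z hz
    have h1 : (commutator Y).map σ.toMonoidHom ≤ commutator Y := by
      rw [commutator_def, Subgroup.map_commutator]
      apply Subgroup.commutator_mono <;> exact le_top
    exact h1 ⟨z, hz, rfl⟩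
  have hcommfix := hIH _ hcommproper hcomminv
  have hcomm : ∀ u y : Y, u * y * u⁻¹ * y⁻¹ ∈ C := by
    intro u y
    refine hcommfix _ ?_
    exact Subgroup.commutator_mem_commutator (Subgroup.mem_top u) (Subgroup.mem_top y)
  have hcentral : ∀ c ∈ C, ∀ g : Y, c * g = g * c := by
    intro c hc g
    have hz : c ∈ Subgroup.center Y := by
      refine AutAction.mem_center_of_fixed act hgen (hCfix c hc) ?_
      intro g' b
      apply hCfix
      exact hcomm g' c
    exact ((Subgroup.mem_center_iff.mp hz) g).symm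
  have hfpf : ∀ y : Y, σ y * y⁻¹ ∈ C → y ∈ C := by
    intro y hy
    have h1 : y⁻¹ * σ y = σ y * y⁻¹ := by
      have := hcentral _ hy y⁻¹
      calc y⁻¹ * σ y = y⁻¹ * (σ y * y⁻¹) * y := by group
        _ = (σ y * y⁻¹) * y⁻¹ * y := by rw [← this]
        _ = σ y * y⁻¹ := by group
    have h2 := AutAction.fixed_of_diff_fixed hYp act ⟨σ, Subgroup.mem_zpowers σ⟩ (by
      rw [Subgroup.orderOf_mk]
      rw [Nat.card_zpowers] at hcardσ
      exact hcardσ) y (by
        show σ (y⁻¹ * σ y) = y⁻¹ * σ y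
        rw [h1]
        exact hy)
    exact h2
  have hCtop : C ≠ ⊤ := by
    intro h
    apply hy₀ne
    have h1 : (⟨y₀, hy₀⟩ : Y) ∈ C := by rw [h]; exact Subgroup.mem_top _
    exact congrArg Subtype.val h1
  have hYKcard : (Nat.card Y : K) ≠ 0 := by
    obtain ⟨n, hn⟩ := IsPGroup.iff_card.mp hYp
    rw [hn]
    push_cast
    exact pow_ne_zero _ hpK
  by_cases hCbot : C = ⊥
  · -- Frobenius case
    have : Y = ⊥ := by
      refine frobenius_case ρ hρ hr x hx hfix Y hYKcard hxY ?_
      intro y hy hfy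
      have h1 : (⟨y, hy⟩ : Y) ∈ C := Subtype.ext hfy
      rw [hCbot, Subgroup.mem_bot] at h1
      exact congrArg Subtype.val h1
    subst this
    apply hy₀ne
    rw [Subgroup.mem_bot.mp hy₀]
    simp
  obtain ⟨c, hc, hc1⟩ := C.bot_or_exists_ne_one.resolve_left hCbot
  have hρc : ρ (c : Γ) ≠ 1 := by
    intro h
    apply hc1
    apply Subtype.ext
    apply hρ
    rw [h, Subgroup.coe_one, map_one]
  have hpow : ∀ (n : ℕ), ∀ v, (ρ x ^ n) v = ρ (x ^ n) v := by
    intro n v
    rw [map_pow]
  have key : (∃ v, v ≠ 0 ∧ ρ x v = v) ∨ ∃ N, Nat.card (Y ⧸ C) = N ^ 2 ∧ r = N + 1 := by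
    refine exists_fixed_or_num ρ hr hrK x hx Y hxY C hYKcard (fun c hc => hc) hcentral hcomm hfpf hCtop c hc hρc ?_
    intro W₁ hW₁ne hW₁Y hW₁x hscal hcs y hy
    have hW₁xi : ∀ v ∈ W₁, ρ x⁻¹ v ∈ W₁ := by
      intro v hv
      rw [hxr1, map_pow]
      have : ∀ n : ℕ, ∀ v ∈ W₁, (ρ x ^ n) v ∈ W₁ := by
        intro n
        induction n with
        | zero => intro v hv; simpa using hv
        | succ n ih =>
          intro v hv
          rw [pow_succ', Module.End.mul_apply]
          exact hW₁x _ (ih v hv)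
      exact this _ v hv
    -- conjugation by `x⁻¹`
    have hxiY : ∀ u ∈ Y, x⁻¹ * u * x ∈ Y := by
      intro u hu
      have h1 : ((σ ^ (r - 1)) ⟨u, hu⟩ : Y).1 ∈ Y := ((σ ^ (r - 1)) ⟨u, hu⟩).2
      rw [conjAutOf_pow_coe, ← hxr1, inv_inv] at h1
      exact h1
    let R : Subgroup Y :=
      { carrier := {z | ∀ u : Y, ∀ v ∈ W₁, ρ (u : Γ) (ρ (z : Γ) v) = ρ (z : Γ) (ρ (u : Γ) v)}
        one_mem' := by
          intro u v _
          simp
        mul_mem' := by
          intro a b ha hb u v hv
          simp only [Subgroup.coe_mul, map_mul, Module.End.mul_apply]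
          rw [ha u _ (hW₁Y _ b.2 v hv), hb u v hv]
        inv_mem' := by
          intro a ha u v hv
          have h1 := ha u _ (hW₁Y _ (inv_mem a.2) v hv)
          have e : ρ (a : Γ) (ρ (a : Γ)⁻¹ v) = v := by
            rw [← Module.End.mul_apply, ← map_mul, mul_inv_cancel, map_one]
            rfl
          have e' : ∀ w, ρ (a : Γ)⁻¹ (ρ (a : Γ) w) = w := by
            intro w
            rw [← Module.End.mul_apply, ← map_mul, inv_mul_cancel, map_one]
            rfl
          simp only [Subgroup.coe_inv]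
          rw [e] at h1
          rw [h1, e'] }
    have hRmem : ∀ z, z ∈ R ↔ ∀ u : Y, ∀ v ∈ W₁, ρ (u : Γ) (ρ (z : Γ) v) = ρ (z : Γ) (ρ (u : Γ) v) :=
      fun _ => Iff.rfl
    have hRinv : ∀ z ∈ R, σ z ∈ R := by
      intro z hz u v hv
      have hu' := hz ⟨x⁻¹ * u * x, hxiY u u.2⟩ _ (hW₁xi v hv)
      simp only at hu'
      have e : ∀ w, ρ x (ρ x⁻¹ w) = w := by
        intro w
        rw [← Module.End.mul_apply, ← map_mul, mul_inv_cancel, map_one]
        rfl
      rw [hσapp]
      simp only [map_mul, Module.End.mul_apply] at hu' ⊢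
      rw [e] at hu'
      have h1 := congrArg (ρ x) hu'
      rw [e] at h1
      exact h1
    by_cases hRtop : R = ⊤
    · exfalso
      obtain ⟨s, hs1, hs⟩ := hcs
      have hcomm' : c ∈ commutator Y :=
        AutAction.mem_commutator_of_fixed hYp act hcardσ hgen (hCfix c hc)
      -- elements acting trivially
      let T : Subgroup Y :=
        { carrier := {z | ∀ v ∈ W₁, ρ (z : Γ) v = v}
          one_mem' := by intro v _; simp
          mul_mem' := by
            intro a b ha hb v hv
            simp only [Subgroup.coe_mul, map_mul, Module.End.mul_apply]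
            rw [hb v hv, ha v hv]
          inv_mem' := by
            intro a ha v hv
            have h1 := ha _ (hW₁Y _ (inv_mem a.2) v hv)
            have e : ρ (a : Γ) (ρ (a : Γ)⁻¹ v) = v := by
              rw [← Module.End.mul_apply, ← map_mul, mul_inv_cancel, map_one]
              rfl
            rw [e] at h1
            simp only [Subgroup.coe_inv]
            exact h1.symm }
      have hTcomm : commutator Y ≤ T := by
        rw [commutator_def, Subgroup.commutator_le]
        intro u _ z _ v hv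
        have hzR : z ∈ R := by rw [hRtop]; exact Subgroup.mem_top z
        have hi : ∀ (a : Γ) (w : V), ρ a (ρ a⁻¹ w) = w := by
          intro a w
          rw [← Module.End.mul_apply, ← map_mul, mul_inv_cancel, map_one]
          rfl
        have hw : ρ (z : Γ)⁻¹ v ∈ W₁ := hW₁Y _ (inv_mem z.2) v hv
        have h1 := (hRmem z).mp hzR u⁻¹ _ hw
        simp only [Subgroup.coe_inv] at h1
        rw [hi] at h1
        show ρ ((u : Γ) * z * (u : Γ)⁻¹ * (z : Γ)⁻¹) v = v
        simp only [map_mul, Module.End.mul_apply]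
        rw [← h1, hi]
      have hcT := hTcomm hcomm'
      obtain ⟨v, hv, hv0⟩ := Submodule.exists_mem_ne_zero_of_ne_bot hW₁ne
      have h1 := hcT v hv
      rw [hs v hv] at h1
      have h2 : (s - 1) • v = 0 := by rw [sub_smul, one_smul, h1, sub_self]
      rcases smul_eq_zero.mp h2 with h3 | h3
      · exact hs1 (sub_eq_zero.mp h3)
      · exact hv0 h3
    · -- `R` is fixed
      have hRC : ∀ z ∈ R, z ∈ C := hIH R hRtop hRinv
      have hyR : y ∉ R := fun h => hy (hRC y h)
      rw [hRmem] at hyR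
      push Not at hyR
      obtain ⟨u, v, hv, hne⟩ := hyR
      refine ⟨u, ρ (y : Γ) (ρ (u : Γ) v), hW₁Y _ y.2 _ (hW₁Y _ u.2 _ hv), ?_⟩
      intro h
      apply hne
      simp only [Subgroup.coe_mul, Subgroup.coe_inv, map_mul, Module.End.mul_apply] at h
      have e1 : ρ (y : Γ)⁻¹ (ρ (y : Γ) (ρ (u : Γ) v)) = ρ (u : Γ) v := by
        rw [← Module.End.mul_apply, ← map_mul, inv_mul_cancel, map_one]
        rfl
      have e2 : ρ (u : Γ)⁻¹ (ρ (u : Γ) v) = v := by
        rw [← Module.End.mul_apply, ← map_mul, inv_mul_cancel, map_one]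
        rfl
      rw [e1, e2] at h
      exact h
  rcases key with ⟨v, hv, hfv⟩ | ⟨N, hN, hrN⟩
  · exact hv (hfix v hfv)
  · -- numeric contradiction
    by_cases hp2 : p = 2
    · have hN2 : ∃ m, N = 2 ^ m := by
        obtain ⟨n, hn⟩ := IsPGroup.iff_card.mp hYp
        have h1 : Nat.card (Y ⧸ C) ∣ p ^ n := by
          rw [← hn]
          exact Subgroup.card_quotient_dvd_card C
        rw [hN, hp2] at h1
        have h2 : N ∣ 2 ^ n := (dvd_pow_self N two_ne_zero).trans h1
        obtain ⟨m, -, hm⟩ := (Nat.dvd_prime_pow Nat.prime_two).mp h2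
        exact ⟨m, hm⟩
      obtain ⟨m, hm⟩ := hN2
      have hab := hexc hp2 ⟨m, by rw [hrN, hm]⟩
      have hcomm' : c ∈ commutator Y :=
        AutAction.mem_commutator_of_fixed hYp act hcardσ hgen (hCfix c hc)
      have hbot : commutator Y = ⊥ := by
        rw [eq_bot_iff, commutator_def, Subgroup.commutator_le]
        intro a _ b _
        rw [Subgroup.mem_bot, commutatorElement_eq_one_iff_mul_comm]
        exact Subtype.ext (hab a a.2 b b.2)
      rw [hbot, Subgroup.mem_bot] at hcomm'
      exact hc1 hcomm'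
    have hodd : Odd (Nat.card (Y ⧸ C)) := by
      obtain ⟨n, hn⟩ := IsPGroup.iff_card.mp hYp
      have h1 : Nat.card (Y ⧸ C) ∣ p ^ n := by
        rw [← hn]
        exact Subgroup.card_quotient_dvd_card C
      have h2 : Odd (p ^ n) := (hp.out.odd_of_ne_two hp2).pow
      exact Odd.of_dvd_nat h2 h1
    rw [hN] at hodd
    have hNodd : Odd N := Nat.Odd.of_mul_right (by rwa [sq] at hodd)
    have hreven : Even r := by rw [hrN]; exact hNodd.add_one
    have hr2 : r = 2 := hr.even_iff.mp hreven
    have hN1 : N = 1 := by omega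
    rw [hN1, one_pow] at hN
    apply hCtop
    exact Subgroup.index_eq_one.mp hN

/-- The same over an arbitrary field, without faithfulness. -/
theorem centralizes_of_no_fixed_general_exc [Finite Γ] [FiniteDimensional K V] (ρ : Γ →* End K V)
    {p r : ℕ} [hp : Fact p.Prime] (hr : r.Prime) (hpr : p ≠ r)
    (hpK : (p : K) ≠ 0) (hrK : (r : K) ≠ 0) (x : Γ) (hx : x ^ r = 1) (hfix : ∀ v, ρ x v = v → v = 0)
    (Y : Subgroup Γ) (hYp : IsPGroup p Y) (hxY : ∀ y ∈ Y, x * y * x⁻¹ ∈ Y)
    (hexc : p = 2 → (∃ n : ℕ, r = 2 ^ n + 1) → ∀ a ∈ Y, ∀ b ∈ Y, a * b = b * a) :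
    ∀ y ∈ Y, ρ (x * y * x⁻¹) = ρ y := by
  classical
  let L := AlgebraicClosure K
  let W := TensorProduct K L V
  let bc : End K V →* End L W := (Module.End.baseChangeHom K L V : End K V →ₐ[K] End L W).toMonoidHom
  have hbc : ∀ f : End K V, bc f = f.baseChange L := fun _ => rfl
  have hbcinj : Function.Injective bc := LinearMap.baseChangeHom_injective K V L
  let ρL : Γ →* End L W := bc.comp ρ
  let ρu : Γ →* (End L W)ˣ := ρL.toHomUnits
  let Γ' : Subgroup (End L W)ˣ := ρu.range
  let π : Γ →* Γ' := ρu.rangeRestrict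
  have hπ : Function.Surjective π := MonoidHom.rangeRestrict_surjective ρu
  let ρ' : Γ' →* End L W := (Units.coeHom (End L W)).comp Γ'.subtype
  have hρ'inj : Function.Injective ρ' := by
    intro a b hab
    apply Subtype.ext
    exact Units.ext hab
  have hρ'π : ∀ g : Γ, ρ' (π g) = bc (ρ g) := fun _ => rfl
  haveI : Finite Γ' := Finite.of_surjective π hπ
  have hpL : (p : L) ≠ 0 := by
    intro h
    apply hpK
    have : algebraMap K L (p : K) = 0 := by rw [map_natCast]; exact h
    exact (map_eq_zero_iff _ (algebraMap K L).injective).mp this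
  have hrL : (r : L) ≠ 0 := by
    intro h
    apply hrK
    have : algebraMap K L (r : K) = 0 := by rw [map_natCast]; exact h
    exact (map_eq_zero_iff _ (algebraMap K L).injective).mp this
  have hfix' : ∀ v, ρ' (π x) v = v → v = 0 := by
    intro v hv
    have hinj : Function.Injective (ρ x - 1 : End K V) := by
      rw [injective_iff_map_eq_zero]
      intro a ha
      apply hfix
      simpa [sub_eq_zero] using ha
    have hinj' : Function.Injective ((ρ x - 1 : End K V).lTensor L) :=
      Module.Flat.lTensor_preserves_injective_linearMap _ hinj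
    apply hinj'
    rw [map_zero, ← LinearMap.baseChange_eq_ltensor, LinearMap.baseChange_sub, LinearMap.baseChange_one]
    show (bc (ρ x) - 1) v = 0
    rw [LinearMap.sub_apply, ← hρ'π, hv]
    simp
  have hY' : IsPGroup p (Y.map π) := hYp.map π
  have hxY' : ∀ y ∈ Y.map π, π x * y * (π x)⁻¹ ∈ Y.map π := by
    rintro _ ⟨y, hy, rfl⟩
    exact ⟨x * y * x⁻¹, hxY y hy, by simp [map_mul, map_inv]⟩
  have hxr' : (π x) ^ r = 1 := by rw [← map_pow, hx, map_one]
  intro y hy
  have key := centralizes_of_no_fixed_exc ρ' hρ'inj hr hpr hpL hrL (π x) hxr' hfix' (Y.map π) hY' hxY'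
    (by
      rintro h2 hf _ ⟨a, ha, rfl⟩ _ ⟨b, hb, rfl⟩
      rw [← map_mul, ← map_mul, hexc h2 hf a ha b hb])
    (π y) ⟨y, hy, rfl⟩
  apply hbcinj
  rw [← hρ'π, ← hρ'π]
  congr 1
  rw [map_mul, map_mul, map_inv]
  exact key

/-- The elementary abelian form. -/
theorem centralizes_comm_exc [Finite Γ] {A : Type*} [CommGroup A] [Finite A]
    {q : ℕ} [hq : Fact q.Prime] (hqA : ∀ a : A, a ^ q = 1) (β : Γ →* MulAut A)
    {p r : ℕ} [hp : Fact p.Prime] (hr : r.Prime) (hpr : p ≠ r) (hpq : p ≠ q) (hqr : q ≠ r)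
    (x : Γ) (hx : x ^ r = 1) (hfix : ∀ a, β x a = a → a = 1)
    (Y : Subgroup Γ) (hYp : IsPGroup p Y) (hxY : ∀ y ∈ Y, x * y * x⁻¹ ∈ Y)
    (hexc : p = 2 → (∃ n : ℕ, r = 2 ^ n + 1) → ∀ a ∈ Y, ∀ b ∈ Y, a * b = b * a) :
    ∀ y ∈ Y, β (x * y * x⁻¹) = β y := by
  have inst : Module (ZMod q) (Additive A) := AddCommGroup.zmodModule (fun a => by
    show Additive.ofMul ((Additive.toMul a) ^ q) = 0
    rw [hqA]
    rfl)
  haveI : Module.Finite (ZMod q) (Additive A) := Module.Finite.of_finite
  let ρ : Γ →* End (ZMod q) (Additive A) :=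
    { toFun := fun g => AddMonoidHom.toZModLinearMap q (MonoidHom.toAdditive (β g).toMonoidHom)
      map_one' := by
        apply LinearMap.ext
        intro a
        show Additive.ofMul (β 1 (Additive.toMul a)) = a
        rw [map_one]
        rfl
      map_mul' := by
        intro g h
        apply LinearMap.ext
        intro a
        show Additive.ofMul (β (g * h) (Additive.toMul a)) = Additive.ofMul (β g (β h (Additive.toMul a)))
        rw [map_mul]
        rfl }
  have hρapp : ∀ (g : Γ) (a : A), ρ g (Additive.ofMul a) = Additive.ofMul (β g a) := fun _ _ => rfl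
  have hK : ∀ {u : ℕ}, u.Prime → u ≠ q → ((u : ℕ) : ZMod q) ≠ 0 := by
    intro u hu huq h
    rw [ZMod.natCast_eq_zero_iff] at h
    exact huq ((Nat.prime_dvd_prime_iff_eq hq.out hu).mp h).symm
  have key := centralizes_of_no_fixed_general_exc ρ hr hpr (hK hp.out hpq) (hK hr hqr.symm) x hx
    (fun v hv => hfix (Additive.toMul v) hv) Y hYp hxY hexc
  intro y hy
  ext a
  have h1 := congrArg (fun f : End (ZMod q) (Additive A) => f (Additive.ofMul a)) (key y hy)
  simp only [hρapp] at h1
  exact Additive.ofMul.injective h1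

/-- The elementary abelian form, for a group which happens to be commutative. -/
theorem centralizes_comm_exc' [Finite Γ] {A : Type*} [inst : Group A] [Finite A] (hA : ∀ a b : A, a * b = b * a)
    {q : ℕ} [hq : Fact q.Prime] (hqA : ∀ a : A, a ^ q = 1) (β : Γ →* MulAut A)
    {p r : ℕ} [hp : Fact p.Prime] (hr : r.Prime) (hpr : p ≠ r) (hpq : p ≠ q) (hqr : q ≠ r)
    (x : Γ) (hx : x ^ r = 1) (hfix : ∀ a, β x a = a → a = 1)
    (Y : Subgroup Γ) (hYp : IsPGroup p Y) (hxY : ∀ y ∈ Y, x * y * x⁻¹ ∈ Y)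
    (hexc : p = 2 → (∃ n : ℕ, r = 2 ^ n + 1) → ∀ a ∈ Y, ∀ b ∈ Y, a * b = b * a) :
    ∀ y ∈ Y, β (x * y * x⁻¹) = β y :=
  @centralizes_comm_exc Γ _ _ A { inst with mul_comm := hA } _ q hq hqA β p r hp hr hpr hpq hqr x hx hfix Y hYp hxY hexc

end Cfsg.Agent.Lib.OddOrder.HHTwo
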