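import Mathlib
import Cfsg.Agent.Lib.OddOrder.PFE6
import Cfsg.Agent.Lib.OddOrder.PF9DFam

/-!
# Section 11 of the PF blueprint: the lift `FL` of a Frobenius group with T.I. kernel

`FrobData.Lift_A_eq`: `D Ψ - Σ dᵢ σᵢ = n 1_B` with `B` the conjugates of `H#`, `n = |H|`.
`FrobData.exists_FL`: the data of `PFE6.FL` over a rigid pair.
-/

set_option autoImplicit false
set_option linter.style.haveILetI false
set_option linter.unusedSectionVars false
open scoped ComplexConjugate BigOperators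

namespace Cfsg.Agent.Lib.OddOrder.PF9D.FrobData

open Cfsg Subgroup Cfsg.Agent.Lib.Char Cfsg.Agent.Lib.Char.Virtual Cfsg.Agent.Lib.Char.Induced
open Cfsg.Agent.Lib.Char.CyclicTI Cfsg.Agent.Lib.OddOrder.PF9Row Cfsg.Agent.Lib.OddOrder.PF9D
open Cfsg.Agent.Lib.OddOrder.PF7Coh Cfsg.Agent.Lib.OddOrder.PF7Frob Cfsg.Agent.Lib.Char.Coherence
open Cfsg.Agent.Lib.OddOrder.PFE3 Cfsg.Agent.Lib.OddOrder.PFE4 Cfsg.Agent.Lib.OddOrder.PFE6
open Cfsg.Agent.Lib.OddOrder.PF9E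

variable {G : Type*} [Group G] [Fintype G]
variable {H L : Subgroup G} [Fintype L] (X : FrobData H L)

section A

variable [Fintype (SS H L)]

/-- `Σ_φ d_φ φ = -1` on `H#`. -/
theorem sum_dd_apply {x : L} (hx : (x : G) ∈ H) (hx1 : (x : G) ≠ 1) :
    ∑ φ : SS H L, (X.dd φ : ℂ) * (φ : L → ℂ) x = -1 := by
  classical
  haveI := X.D.normalK
  haveI := Fintype.ofFinite (H.subgroupOf L)
  have hP := Psi_mem_zspan (H.subgroupOf L)
  have hinner : ∀ φ : SS H L, classInner (Psi (H.subgroupOf L)) (φ : L → ℂ) = (φ : L → ℂ) 1 := by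
    rintro ⟨φ, hφ⟩
    rw [classInner_Psi_left]
    have h0 : classInner (fun _ : H.subgroupOf L => (1 : ℂ)) (fun k : H.subgroupOf L => φ k) = 0 := by
      obtain ⟨θ, hθ, hθ1, -, rfl⟩ := hφ
      rw [classInner_def]
      have h := sum_indFun_eq_zero (H.subgroupOf L) hθ hθ1
      simp only [one_mul]
      rw [← map_sum, h, map_zero, mul_zero]
    obtain ⟨d, -, hd⟩ := exists_degree_of_isIrr (SS_irr X.D hφ)
    simp only
    rw [h0, sub_zero, hd, Complex.conj_natCast]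
  have h2 := congrFun (X.expansion hP) x
  rw [Psi_of_mem (H.subgroupOf L) (mem_subgroupOf.mpr hx) (fun h => hx1 (congrArg Subtype.val h))] at h2
  rw [Finset.sum_apply] at h2
  have h3 : ∀ φ : SS H L, (classInner (Psi (H.subgroupOf L)) (φ : L → ℂ) • (φ : L → ℂ)) x
      = ((H.subgroupOf L).index : ℂ) * ((X.dd φ : ℂ) * (φ : L → ℂ) x) := by
    intro φ
    rw [hinner, Pi.smul_apply, smul_eq_mul, X.dd_spec φ]
    ring
  simp_rw [h3] at h2
  rw [← Finset.mul_sum] at h2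
  have he := X.index_ne
  have h4 : ((H.subgroupOf L).index : ℂ) * (∑ φ : SS H L, (X.dd φ : ℂ) * (φ : L → ℂ) x)
      = ((H.subgroupOf L).index : ℂ) * (-1) := by
    rw [← h2]
    ring
  exact mul_left_cancel₀ he h4

/-- The formula for `A` in terms of induced functions. -/
theorem Lift_A_apply (g : G) :
    Lift_A X.lift g = (X.lift.D : ℂ) * indFun L (Bf H L - X.φ₀) g
      - ∑ φ : SS H L, (X.dd φ : ℂ) * indFun L ((φ : L → ℂ) - (X.dd φ : ℂ) • X.φ₀) g := by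
  have h1 : ∀ φ : SS H L, X.τ φ g
      = indFun L ((φ : L → ℂ) - (X.dd φ : ℂ) • X.φ₀) g + (X.dd φ : ℂ) * X.τ X.φ₀ g := by
    intro φ
    rw [X.tau_diff φ]
    simp only [Pi.sub_apply, Pi.smul_apply, smul_eq_mul]
    ring
  have h2 : Lift_A X.lift g = (X.lift.D : ℂ) * (indFun L (Bf H L - X.φ₀) g + X.τ X.φ₀ g)
      - ∑ φ : SS H L, (X.dd φ : ℂ) * X.τ φ g := by
    rw [Lift_A, Pi.sub_apply, Finset.sum_apply]
    rfl
  have hD : (X.lift.D : ℂ) = ∑ φ : SS H L, (X.dd φ : ℂ) * (X.dd φ : ℂ) := by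
    show ((∑ i, X.dd i ^ 2 : ℤ) : ℂ) = _
    push_cast
    exact Finset.sum_congr rfl fun φ _ => by ring
  rw [h2]
  simp_rw [h1, mul_add]
  rw [Finset.sum_add_distrib]
  have h3 : ∑ φ : SS H L, (X.dd φ : ℂ) * ((X.dd φ : ℂ) * X.τ X.φ₀ g)
      = (X.lift.D : ℂ) * X.τ X.φ₀ g := by
    rw [hD, Finset.sum_mul]
    exact Finset.sum_congr rfl fun φ _ => by ring
  rw [h3]
  ring

/-- **`A = n 1_B`.** -/
theorem Lift_A_eq (g : G) [Decidable (g ∈ conjSharp H)] :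
    Lift_A X.lift g = if g ∈ conjSharp H then ((Nat.card H : ℕ) : ℂ) else 0 := by
  classical
  rw [Lift_A_apply]
  split_ifs with hg
  · obtain ⟨y, hy, hy1⟩ := hg
    have hcl : ∀ (β : L → ℂ), indFun L β g = indFun L β (y⁻¹ * g * y) := by
      intro β
      have := indFun_isClassFunction L β g y⁻¹
      rw [inv_inv] at this
      exact this.symm
    set x : L := ⟨y⁻¹ * g * y, X.D.le hy⟩ with hx
    have h1 := X.Bf_sub_mem
    have hΓ : indFun L (Bf H L - X.φ₀) g = Bf H L x - X.φ₀ x := by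
      rw [hcl, indFun_on X.D _ h1.1 h1.2.2 hy hy1]
      rfl
    have hφ : ∀ φ : SS H L, indFun L ((φ : L → ℂ) - (X.dd φ : ℂ) • X.φ₀) g
        = (φ : L → ℂ) x - (X.dd φ : ℂ) * X.φ₀ x := by
      intro φ
      have h2 := X.mem_Dom_of_zspan (X.diff_mem φ) (X.diff_one φ)
      rw [hcl, indFun_on X.D _ h2.1 h2.2.2 hy hy1]
      rfl
    have hD : (X.lift.D : ℂ) = ∑ φ : SS H L, (X.dd φ : ℂ) * (X.dd φ : ℂ) := by
      show ((∑ i, X.dd i ^ 2 : ℤ) : ℂ) = _
      push_cast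
      exact Finset.sum_congr rfl fun φ _ => by ring
    rw [hΓ]
    simp_rw [hφ, mul_sub]
    rw [Finset.sum_sub_distrib, X.Bf_of_mem (x := x) hy]
    have h3 : ∑ φ : SS H L, (X.dd φ : ℂ) * ((X.dd φ : ℂ) * X.φ₀ x) = (X.lift.D : ℂ) * X.φ₀ x := by
      rw [hD, Finset.sum_mul]
      exact Finset.sum_congr rfl fun φ _ => by ring
    rw [h3, X.sum_dd_apply (x := x) hy hy1]
    have h4 : (X.lift.D : ℂ) * ((H.subgroupOf L).index : ℂ) = ((Nat.card H : ℕ) : ℂ) - 1 := by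
      have := X.D_mul'
      exact_mod_cast congrArg (fun z : ℤ => (z : ℂ)) this
    rw [h4]
    ring
  · have hg' := not_conjSharp hg
    rw [indFun_off _ X.Bf_sub_mem.2.2 X.Bf_sub_mem.2.1 hg', mul_zero, zero_sub, neg_eq_zero]
    refine Finset.sum_eq_zero fun φ _ => ?_
    have h2 := X.mem_Dom_of_zspan (X.diff_mem φ) (X.diff_one φ)
    rw [indFun_off _ h2.2.2 h2.2.1 hg', mul_zero]

end A

section B

variable {S N K T N' K' W₁ W₂ W : Subgroup G} {ρK : ↥K →* ↥W₂} {ρK' : ↥K' →* ↥W₁}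
  (h : Hyp S N K W₁ W₂ W ρK) {calL : Finset (↥K →* ℂˣ)} (d : Data h calL)
  (h' : Hyp T N' K' W₂ W₁ W ρK') {calL' : Finset (↥K' →* ℂˣ)} (d' : Data h' calL')
  {χ : (↥W →* ℂˣ) → G → ℂ} (F : Fam W₁ W₂ W χ)

/-- The element of `ZI` attached to a nonzero index. -/
def zOf {W₁ W : Subgroup G} (j : Hyp.IA W₁ W) (hj : j.1 ≠ 1) : ZI W₁ W := ⟨j.1, hj, j.2⟩

omit [Fintype G] in
theorem ne_one_of_ne_i0 {W₁ W : Subgroup G} {j : Hyp.IA W₁ W} (hj : j ≠ ⟨1, fun _ _ => rfl⟩) :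
    j.1 ≠ 1 := fun e => hj (Subtype.ext e)

include h d F in
/-- The columns are constant on `H#`. -/
theorem col_const (hA : Away H K W₁ W₂) (ψ ψ' : Hyp.IA W₁ W) (hψ : ψ.1 ≠ 1) (hψ' : ψ'.1 ≠ 1) {g : G}
    (hg : g ∈ H) (hg1 : g ≠ 1) : χ ψ.1 g = χ ψ'.1 g := by
  have hgs : g ∈ conjSharp H := ⟨1, by simpa using hg, by simpa using hg1⟩
  exact h.zLift_σ_off d F (zOf ψ' hψ') (zOf ψ hψ) (hA g hgs).1 (hA g hgs).2

variable [Fintype (SS H L)]

include d d' in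
/-- **The lift over a rigid pair.** -/
theorem exists_FL (hodd : Odd (Nat.card G))
    (R : RigidEta G (Hyp.IA W₂ W) (Hyp.IA W₁ W)) [Fintype (Hyp.IA W₂ W)] [Fintype (Hyp.IA W₁ W)]
    (hRF : R.F = h.etaFam F)
    (hu : h.B.relIndex S = R.u) (hv : h'.B.relIndex T = R.v)
    (hA : Away H K W₁ W₂) (hA' : Away H K' W₂ W₁)
    (hBO : ∀ g ∈ conjSharp H, g ∉ tildeF R.W ∧ g ∉ tildeF R.H ∧ g ∉ tildeF R.Q) :
    ∃ Y : FL R (SS H L), Y.L = X.lift ∧ Y.n = Nat.card H ∧ Y.e = (H.subgroupOf L).index := by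
  classical
  have hq : Nat.card W₁ = R.q := by rw [← R.hq, h.z_card_IA.1]
  have hp : Nat.card W₂ = R.p := by rw [← R.hp, h.z_card_IA.2]
  have hC : ∀ g ∈ R.F.C, ∀ y : G, y⁻¹ * g * y ∈ H → y⁻¹ * g * y = 1 := by
    rw [hRF]
    rintro g ⟨y₁, w, hw, rfl⟩ y hy
    by_contra hne
    exact (hA _ ⟨y, hy, hne⟩).2 y₁ w hw rfl
  have hrow : ∀ i i', i ≠ R.F.i0 → i' ≠ R.F.i0 → ∀ g ∈ H, g ≠ 1 →
      R.F.η i R.F.j0 g = R.F.η i' R.F.j0 g := by
    rw [hRF]
    intro i i' hi hi' g hg hg1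
    rw [h.etaFam_one_right F i, h.etaFam_one_right F i']
    exact col_const h' d' F.symm hA' i i' (ne_one_of_ne_i0 hi) (ne_one_of_ne_i0 hi') hg hg1
  have hcol : ∀ j j', j ≠ R.F.j0 → j' ≠ R.F.j0 → ∀ g ∈ H, g ≠ 1 →
      R.F.η R.F.i0 j g = R.F.η R.F.i0 j' g := by
    rw [hRF]
    intro j j' hj hj' g hg hg1
    rw [h.etaFam_one_left F j, h.etaFam_one_left F j']
    exact col_const h d F hA j j' (ne_one_of_ne_i0 hj) (ne_one_of_ne_i0 hj') hg hg1
  obtain ⟨x, y, hx, hy, ht, -⟩ := X.sum_rule R.F hC hrow hcol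
  have hindex : (0 : ℤ) < ((H.subgroupOf L).index : ℤ) := by
    have : (H.subgroupOf L).index ≠ 0 := Subgroup.index_ne_zero_of_finite
    omega
  refine ⟨{
    L := X.lift
    n := Nat.card H
    e := (H.subgroupOf L).index
    hE := rfl
    hD := X.D_mul'
    B := Finset.univ.filter (· ∈ conjSharp H)
    hA := ?_
    hBO := ?_
    hperp := ?_
    x := x
    y := y
    hone := X.Ψ_inner_one
    hx := fun k hk => (hx k hk).1
    hy := fun l hl => (hy l hl).1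
    ht := fun k hk l hl => (ht k hk l hl).1
    real := X.Ψ_real
    parY := ?_
    parX := ?_ }, rfl, rfl, rfl⟩
  · intro g
    rw [X.Lift_A_eq g]
    simp
  · intro g hg
    exact hBO g (Finset.mem_filter.mp hg).2
  · intro i k l
    exact X.perp R.F hC i.2 k l
  · intro hev
    obtain ⟨l, hl⟩ := FL.exists_ne_j R
    have hl' : l.1 ≠ 1 := ne_one_of_ne_i0 (by rw [hRF] at hl; exact hl)
    have h1 := X.even_value_bound h d F hodd hA (zOf l hl') (v := y) (fun g hg hg1 => by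
      have h2 := (hy l hl).2 g hg hg1
      rw [hRF, h.etaFam_one_left F l] at h2
      exact h2) hev
    rw [hu, hq, ← X.D_mul'] at h1
    have h3 : (H.subgroupOf L).index * (X.lift.D * (R.q : ℤ))
        ≤ (H.subgroupOf L).index * ((R.u : ℤ) - 1) := by
      linarith
    exact le_of_mul_le_mul_left h3 hindex
  · intro hev
    obtain ⟨k, hk⟩ := FL.exists_ne_i R
    have hk' : k.1 ≠ 1 := ne_one_of_ne_i0 (by rw [hRF] at hk; exact hk)
    have h1 := X.even_value_bound h' d' F.symm hodd hA' (zOf k hk') (v := x) (fun g hg hg1 => by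
      have h2 := (hx k hk).2 g hg hg1
      rw [hRF, h.etaFam_one_right F k] at h2
      exact h2) hev
    rw [hv, hp, ← X.D_mul'] at h1
    have h3 : (H.subgroupOf L).index * (X.lift.D * (R.p : ℤ))
        ≤ (H.subgroupOf L).index * ((R.v : ℤ) - 1) := by
      linarith
    exact le_of_mul_le_mul_left h3 hindex

end B

end Cfsg.Agent.Lib.OddOrder.PF9D.FrobData
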