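import Mathlib
import Cfsg.Agent.Lib.Char.Coherence
import Cfsg.Agent.Lib.Char.Virtual

/-!
# Feit's coherence theorem, part 1: the based extension

A set of irreducible characters whose degrees are multiples of the degree of one member `χ₁`.
Everything is controlled by one virtual character `w` of norm one, the would-be image of `χ₁`.
-/

set_option autoImplicit false

namespace Cfsg.Agent.Lib.OddOrder.PF6Feit1

open Cfsg Cfsg.Agent.Lib.Char.Virtual Cfsg.Agent.Lib.Char.Coherence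
open scoped ComplexConjugate

variable {L : Type*} [Group L] [Fintype L] {G : Type*} [Group G] [Fintype G]

/-- The data of a based extension. -/
structure BaseData (T : Set (L → ℂ)) (τ : (L → ℂ) → (G → ℂ)) (a : (L → ℂ) → ℕ)
    (χ₁ : L → ℂ) : Prop where
  irr : ∀ φ ∈ T, IsIrrCharacter L φ
  iso : IsLinearIsometryOn (zspanOn T {1}ᶜ) τ
  mem : χ₁ ∈ T
  a_one : a χ₁ = 1
  deg : ∀ φ ∈ T, φ 1 = (a φ : ℂ) * χ₁ 1

/-- The image of `φ - a φ χ₁`. -/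
noncomputable def UU (τ : (L → ℂ) → (G → ℂ)) (a : (L → ℂ) → ℕ) (χ₁ φ : L → ℂ) : G → ℂ :=
  τ (φ - (a φ : ℤ) • χ₁)

/-- The would-be image of `φ`. -/
noncomputable def FF (τ : (L → ℂ) → (G → ℂ)) (a : (L → ℂ) → ℕ) (χ₁ : L → ℂ) (w : G → ℂ)
    (φ : L → ℂ) : G → ℂ :=
  UU τ a χ₁ φ + (a φ : ℤ) • w

/-- `w` is compatible with the set `Φ`. -/
def Good (τ : (L → ℂ) → (G → ℂ)) (a : (L → ℂ) → ℕ) (χ₁ : L → ℂ) (Φ : Set (L → ℂ)) (w : G → ℂ) :
    Prop :=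
  ∀ φ ∈ Φ, φ ≠ χ₁ → classInner (UU τ a χ₁ φ) w = -(a φ : ℂ)

variable {T : Set (L → ℂ)} {τ : (L → ℂ) → (G → ℂ)} {a : (L → ℂ) → ℕ} {χ₁ : L → ℂ}

theorem BaseData.beta_mem (h : BaseData T τ a χ₁) {φ : L → ℂ} (hφ : φ ∈ T) :
    φ - (a φ : ℤ) • χ₁ ∈ zspanOn T {1}ᶜ := by
  rw [mem_zspanOn_compl_one]
  refine ⟨zspan_sub (mem_zspan_of_mem hφ) (zspan_zsmul _ (mem_zspan_of_mem h.mem)), ?_⟩
  show φ 1 - (a φ : ℤ) • χ₁ 1 = 0
  rw [h.deg φ hφ, zsmul_eq_mul]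
  push_cast
  ring

theorem BaseData.tau_zero (h : BaseData T τ a χ₁) : τ 0 = 0 :=
  IsLinearIsometryOn.map_zero h.iso (by simpa [h.a_one] using h.beta_mem h.mem)

theorem BaseData.UU_base (h : BaseData T τ a χ₁) : UU τ a χ₁ χ₁ = 0 := by
  unfold UU
  rw [h.a_one]
  simpa using h.tau_zero

theorem BaseData.FF_base (h : BaseData T τ a χ₁) (w : G → ℂ) : FF τ a χ₁ w χ₁ = w := by
  unfold FF
  rw [h.UU_base, h.a_one]
  simp

theorem BaseData.inner_irr (h : BaseData T τ a χ₁) {φ ψ : L → ℂ} (hφ : φ ∈ T) (hψ : ψ ∈ T) :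
    classInner φ ψ = if φ = ψ then 1 else 0 := by
  split_ifs with hh
  · subst hh
    exact classInner_irr_self (h.irr φ hφ)
  · exact classInner_irr_of_ne (h.irr φ hφ) (h.irr ψ hψ) hh

theorem BaseData.UU_virtual (h : BaseData T τ a χ₁) {φ : L → ℂ} (hφ : φ ∈ T) :
    IsGeneralizedCharacter G (UU τ a χ₁ φ) :=
  h.iso.2.2.2 _ (h.beta_mem hφ)

/-- The inner products of the differences. -/
theorem BaseData.UU_inner (h : BaseData T τ a χ₁) {φ ψ : L → ℂ} (hφ : φ ∈ T) (hψ : ψ ∈ T)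
    (hφ1 : φ ≠ χ₁) (hψ1 : ψ ≠ χ₁) :
    classInner (UU τ a χ₁ φ) (UU τ a χ₁ ψ) = (if φ = ψ then 1 else 0) + (a φ : ℂ) * (a ψ : ℂ) := by
  unfold UU
  rw [h.iso.2.2.1 _ (h.beta_mem hφ) _ (h.beta_mem hψ), classInner_sub_left, classInner_sub_right,
    classInner_sub_right, classInner_zsmul_right, classInner_zsmul_left, classInner_zsmul_left,
    classInner_zsmul_right, h.inner_irr hφ hψ, h.inner_irr hφ h.mem, h.inner_irr h.mem hψ,
    h.inner_irr h.mem h.mem, if_neg hφ1, if_neg (Ne.symm hψ1), if_pos rfl]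
  push_cast
  ring

/-- Orthonormality of the would-be images. -/
theorem BaseData.FF_inner (h : BaseData T τ a χ₁) {Φ : Set (L → ℂ)} (hΦ : Φ ⊆ T) {w : G → ℂ}
    (hw : classInner w w = 1) (hg : Good τ a χ₁ Φ w) {φ ψ : L → ℂ} (hφ : φ ∈ Φ) (hψ : ψ ∈ Φ) :
    classInner (FF τ a χ₁ w φ) (FF τ a χ₁ w ψ) = classInner φ ψ := by
  rw [h.inner_irr (hΦ hφ) (hΦ hψ)]
  have hconj : ∀ ξ ∈ Φ, ξ ≠ χ₁ → classInner w (UU τ a χ₁ ξ) = -(a ξ : ℂ) := by
    intro ξ hξ hξ1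
    rw [← classInner_conj_symm, hg ξ hξ hξ1]
    simp
  by_cases h1 : φ = χ₁
  · subst h1
    rw [h.FF_base]
    by_cases h2 : ψ = φ
    · subst h2
      rw [h.FF_base, hw, if_pos rfl]
    · unfold FF
      rw [classInner_add_right, classInner_zsmul_right, hconj ψ hψ h2, hw, if_neg (Ne.symm h2)]
      push_cast
      ring
  · by_cases h2 : ψ = χ₁
    · subst h2
      rw [h.FF_base]
      unfold FF
      rw [classInner_add_left, classInner_zsmul_left, hg φ hφ h1, hw, if_neg h1]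
      push_cast
      ring
    · unfold FF
      rw [classInner_add_left, classInner_add_right, classInner_add_right, classInner_zsmul_left,
        classInner_zsmul_right, classInner_zsmul_right, classInner_zsmul_left,
        h.UU_inner (hΦ hφ) (hΦ hψ) h1 h2, hg φ hφ h1, hconj ψ hψ h2, hw]
      push_cast
      ring

/-- The numerical heart of the extension step. -/
theorem num_step (A b k : ℤ) (hb : 0 ≤ b) (hA : 2 * b + 1 < A)
    (h : A * k ^ 2 - 2 * k * b ≤ 1) : k = 0 := by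
  by_contra hk
  rcases lt_or_gt_of_ne hk with hk | hk
  · have h1 : k ≤ -1 := by omega
    have h2 : 1 ≤ k ^ 2 := by nlinarith
    have h3 : A ≤ A * k ^ 2 := by nlinarith
    have h4 : k * b ≤ 0 := by nlinarith
    nlinarith
  · have h1 : 1 ≤ k := by omega
    have h2 : k ≤ k ^ 2 := by nlinarith
    have h3 : A * k ≤ A * k ^ 2 := by nlinarith
    have h4 : 1 < k * (A - 2 * b) := by nlinarith
    nlinarith

/-- The extension step. -/
theorem BaseData.good_step (h : BaseData T τ a χ₁) (Φ : Finset (L → ℂ)) (hΦT : ∀ φ ∈ Φ, φ ∈ T)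
    (hχ₁Φ : χ₁ ∈ Φ) {w : G → ℂ} (hwv : IsGeneralizedCharacter G w) (hw : classInner w w = 1)
    (hg : Good τ a χ₁ (Φ : Set (L → ℂ)) w) {χ : L → ℂ} (hχ : χ ∈ T) (hχ1 : χ ≠ χ₁)
    (hbig : 2 * a χ + 1 < ∑ φ ∈ Φ, a φ ^ 2) :
    classInner (UU τ a χ₁ χ) w = -(a χ : ℂ) := by
  classical
  by_cases hχΦ : χ ∈ Φ
  · exact hg χ hχΦ hχ1
  obtain ⟨c, hc⟩ := exists_int_classInner (h.UU_virtual hχ) hwv
  set k : ℤ := c + a χ with hk
  have hT : (Φ : Set (L → ℂ)) ⊆ T := fun φ hφ => hΦT φ hφ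
  have hinner : ∀ φ ∈ Φ, classInner (UU τ a χ₁ χ) (FF τ a χ₁ w φ) =
      (((a φ : ℤ) * k - (if φ = χ₁ then (a χ : ℤ) else 0) : ℤ) : ℂ) := by
    intro φ hφ
    by_cases h1 : φ = χ₁
    · subst h1
      rw [h.FF_base, hc, if_pos rfl, h.a_one, hk]
      push_cast
      ring
    · have hne : χ ≠ φ := fun e => hχΦ (e ▸ hφ)
      unfold FF
      rw [classInner_add_right, classInner_zsmul_right, hc,
        h.UU_inner hχ (hΦT φ hφ) hχ1 h1, if_neg hne, if_neg h1, hk]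
      push_cast
      ring
  have hnorm : classInner (UU τ a χ₁ χ) (UU τ a χ₁ χ) = ((1 + (a χ : ℤ) ^ 2 : ℤ) : ℂ) := by
    rw [h.UU_inner hχ hχ hχ1 hχ1, if_pos rfl]
    push_cast
    ring
  have hF : ∀ φ ∈ Φ, ∀ ψ ∈ Φ, classInner (FF τ a χ₁ w φ) (FF τ a χ₁ w ψ) = classInner φ ψ :=
    fun φ hφ ψ hψ => h.FF_inner hT hw hg hφ hψ
  have hbes := bessel Φ (UU τ a χ₁ χ) (FF τ a χ₁ w)
    (fun φ hφ ψ hψ hne => by
      rw [hF φ hφ ψ hψ, h.inner_irr (hΦT φ hφ) (hΦT ψ hψ), if_neg hne])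
    (fun _ => 1) (fun φ hφ => by
      rw [hF φ hφ φ hφ, h.inner_irr (hΦT φ hφ) (hΦT φ hφ), if_pos rfl]
      simp) (fun _ _ => one_pos)
  have hsum : ∑ φ ∈ Φ, ‖classInner (UU τ a χ₁ χ) (FF τ a χ₁ w φ)‖ ^ 2 / 1 =
      ((∑ φ ∈ Φ, ((a φ : ℤ) * k - (if φ = χ₁ then (a χ : ℤ) else 0)) ^ 2 : ℤ) : ℝ) := by
    push_cast
    refine Finset.sum_congr rfl fun φ hφ => ?_
    rw [hinner φ hφ, Complex.norm_intCast, sq_abs, div_one]
    push_cast
    rfl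
  rw [hsum, hnorm] at hbes
  have hre : ((((1 + (a χ : ℤ) ^ 2 : ℤ) : ℂ)).re : ℝ) = ((1 + (a χ : ℤ) ^ 2 : ℤ) : ℝ) := by
    rw [Complex.intCast_re]
  rw [hre] at hbes
  have hbes' : ∑ φ ∈ Φ, ((a φ : ℤ) * k - (if φ = χ₁ then (a χ : ℤ) else 0)) ^ 2 ≤ 1 + (a χ : ℤ) ^ 2 := by
    exact_mod_cast hbes
  have hexp : ∑ φ ∈ Φ, ((a φ : ℤ) * k - (if φ = χ₁ then (a χ : ℤ) else 0)) ^ 2 =
      (∑ φ ∈ Φ, ((a φ : ℤ)) ^ 2) * k ^ 2 - 2 * k * a χ + (a χ : ℤ) ^ 2 := by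
    have h1 : ∀ φ ∈ Φ, ((a φ : ℤ) * k - (if φ = χ₁ then (a χ : ℤ) else 0)) ^ 2 =
        (a φ : ℤ) ^ 2 * k ^ 2 - (if φ = χ₁ then 2 * k * (a χ : ℤ) else 0) +
          (if φ = χ₁ then (a χ : ℤ) ^ 2 else 0) := by
      intro φ _
      by_cases h2 : φ = χ₁
      · subst h2
        simp only [if_true, h.a_one]
        push_cast
        ring
      · simp only [if_neg h2]
        ring
    rw [Finset.sum_congr rfl h1, Finset.sum_add_distrib, Finset.sum_sub_distrib, ← Finset.sum_mul]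
    simp only [Finset.sum_ite_eq', hχ₁Φ, if_true]
  rw [hexp] at hbes'
  have hbig' : 2 * (a χ : ℤ) + 1 < ∑ φ ∈ Φ, ((a φ : ℤ)) ^ 2 := by
    exact_mod_cast hbig
  have hk0 := num_step _ (a χ : ℤ) k (by positivity) hbig' (by linarith)
  rw [hc]
  have : c = -(a χ : ℤ) := by omega
  rw [this]
  push_cast
  rfl

/-- A good `w` gives coherence. -/
theorem BaseData.coherent_of_good (h : BaseData T τ a χ₁) (Φ : Finset (L → ℂ))
    (hΦT : ∀ φ ∈ Φ, φ ∈ T) (hχ₁Φ : χ₁ ∈ Φ) {w : G → ℂ} (hwv : IsGeneralizedCharacter G w)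
    (hw : classInner w w = 1) (hg : Good τ a χ₁ (Φ : Set (L → ℂ)) w)
    (h2 : ∃ y ∈ Φ, y ≠ χ₁) :
    IsCoherent (Φ : Set (L → ℂ)) {1}ᶜ τ := by
  classical
  have hT : (Φ : Set (L → ℂ)) ⊆ T := fun φ hφ => hΦT φ hφ
  have hne : ∀ φ ∈ Φ, classInner φ φ ≠ 0 := fun φ hφ => by
    rw [classInner_irr_self (h.irr φ (hΦT φ hφ))]
    exact one_ne_zero
  have orth : ∀ φ ∈ Φ, ∀ ψ ∈ Φ, φ ≠ ψ → classInner φ ψ = 0 := fun φ hφ ψ hψ hh =>
    classInner_irr_of_ne (h.irr φ (hΦT φ hφ)) (h.irr ψ (hΦT ψ hψ)) hh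
  have hvirt : ∀ φ ∈ Φ, IsGeneralizedCharacter G (FF τ a χ₁ w φ) := fun φ hφ => by
    unfold FF
    refine isGeneralized_add (h.UU_virtual (hΦT φ hφ)) ?_
    have := isGeneralized_intCast_smul hwv (a φ : ℤ)
    rwa [Int.cast_smul_eq_zsmul] at this
  have hF : ∀ φ ∈ Φ, ∀ ψ ∈ Φ, classInner (FF τ a χ₁ w φ) (FF τ a χ₁ w ψ) = classInner φ ψ :=
    fun φ hφ ψ hψ => h.FF_inner hT hw hg hφ hψ
  have hiso := isLinearIsometryOn_extend (FF τ a χ₁ w) hne orth hvirt hF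
  have hext : ∀ φ ∈ Φ, extend Φ (FF τ a χ₁ w) φ = FF τ a χ₁ w φ := fun φ hφ =>
    extend_of_mem _ hne orth hφ
  obtain ⟨y, hy, hy1⟩ := h2
  refine ⟨⟨y - (a y : ℤ) • χ₁, ?_, ?_⟩, extend Φ (FF τ a χ₁ w), hiso, ?_⟩
  · rw [mem_zspanOn_compl_one]
    refine ⟨zspan_sub (mem_zspan_of_mem hy) (zspan_zsmul _ (mem_zspan_of_mem hχ₁Φ)), ?_⟩
    exact (mem_zspanOn_compl_one.mp (h.beta_mem (hΦT y hy))).2
  · intro h0
    have h3 : classInner (y - (a y : ℤ) • χ₁) y = 1 := by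
      rw [classInner_sub_left, classInner_zsmul_left, h.inner_irr (hΦT y hy) (hΦT y hy),
        h.inner_irr h.mem (hΦT y hy), if_pos rfl, if_neg (Ne.symm hy1)]
      simp
    rw [h0, classInner_zero_left] at h3
    exact zero_ne_one h3
  · intro α hα
    have hα' := mem_zspanOn_compl_one.mp hα
    have key : ∃ n : ℤ, α - n • χ₁ ∈ zspanOn T {1}ᶜ ∧
        extend Φ (FF τ a χ₁ w) α - n • w = τ (α - n • χ₁) := by
      refine zspan_induction (P := fun α => ∃ n : ℤ, α - n • χ₁ ∈ zspanOn T {1}ᶜ ∧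
        extend Φ (FF τ a χ₁ w) α - n • w = τ (α - n • χ₁)) ?_ ?_ ?_ ?_ hα'.1
      · intro y hy
        refine ⟨(a y : ℤ), h.beta_mem (hT hy), ?_⟩
        rw [hext y hy]
        unfold FF UU
        abel
      · refine ⟨0, ?_, ?_⟩
        · simpa using mem_zspanOn_compl_one.mpr ⟨zspan_zero T, rfl⟩
        · simp [extend_zero, h.tau_zero]
      · rintro x y ⟨n, hn, hn'⟩ ⟨m, hm, hm'⟩
        have he : x + y - (n + m) • χ₁ = (x - n • χ₁) + (y - m • χ₁) := by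
          rw [add_smul]
          abel
        have hmem : (x - n • χ₁) + (y - m • χ₁) ∈ zspanOn T {1}ᶜ := by
          rw [mem_zspanOn_compl_one] at hn hm ⊢
          refine ⟨zspan_add hn.1 hm.1, ?_⟩
          show (x - n • χ₁) 1 + (y - m • χ₁) 1 = 0
          rw [hn.2, hm.2, add_zero]
        refine ⟨n + m, by rw [he]; exact hmem, ?_⟩
        rw [he, h.iso.1 _ hn _ hm, ← hn', ← hm', extend_add, add_smul]
        abel
      · rintro k x ⟨n, hn, hn'⟩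
        have he : k • x - (k * n) • χ₁ = k • (x - n • χ₁) := by
          rw [mul_smul, smul_sub]
        have hmem : k • (x - n • χ₁) ∈ zspanOn T {1}ᶜ := by
          rw [mem_zspanOn_compl_one] at hn ⊢
          refine ⟨zspan_zsmul k hn.1, ?_⟩
          show k • (x - n • χ₁) 1 = 0
          rw [hn.2, smul_zero]
        refine ⟨k * n, by rw [he]; exact hmem, ?_⟩
        rw [he, h.iso.2.1 _ hn, ← hn', extend_zsmul, mul_smul, smul_sub]
    obtain ⟨n, hn, hn'⟩ := key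
    have hn0 : n = 0 := by
      have h3 := (mem_zspanOn_compl_one.mp hn).2
      have h4 : α 1 - n • χ₁ 1 = 0 := h3
      rw [hα'.2, zsmul_eq_mul, zero_sub, neg_eq_zero] at h4
      have h5 := (mul_eq_zero.mp h4).resolve_right (irr_one_ne_zero (h.irr χ₁ h.mem))
      exact_mod_cast h5
    subst hn0
    simpa using hn'

/-- Coherence gives a good `w`. -/
theorem BaseData.good_of_coherent (h : BaseData T τ a χ₁) {Φ : Set (L → ℂ)} (hΦT : Φ ⊆ T)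
    (hχ₁Φ : χ₁ ∈ Φ) (hcoh : IsCoherent Φ {1}ᶜ τ) :
    ∃ w : G → ℂ, IsGeneralizedCharacter G w ∧ classInner w w = 1 ∧ Good τ a χ₁ Φ w := by
  obtain ⟨-, τ₁, hτ₁, hag⟩ := hcoh
  have hm : χ₁ ∈ zspan Φ := mem_zspan_of_mem hχ₁Φ
  refine ⟨τ₁ χ₁, hτ₁.2.2.2 _ hm, ?_, ?_⟩
  · rw [hτ₁.2.2.1 _ hm _ hm]
    exact classInner_irr_self (h.irr _ h.mem)
  · intro φ hφ hφ1
    have hφm : φ ∈ zspan Φ := mem_zspan_of_mem hφ
    have hβ : φ - (a φ : ℤ) • χ₁ ∈ zspanOn Φ {1}ᶜ := by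
      rw [mem_zspanOn_compl_one]
      refine ⟨zspan_sub hφm (zspan_zsmul _ hm), ?_⟩
      exact (mem_zspanOn_compl_one.mp (h.beta_mem (hΦT hφ))).2
    unfold UU
    rw [← hag _ hβ, hτ₁.2.2.1 _ (mem_zspanOn_compl_one.mp hβ).1 _ hm, classInner_sub_left,
      classInner_zsmul_left, h.inner_irr (hΦT hφ) h.mem, h.inner_irr h.mem h.mem, if_neg hφ1,
      if_pos rfl]
    simp

end Cfsg.Agent.Lib.OddOrder.PF6Feit1
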