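import Mathlib
import Cfsg.Agent.Lib.OddOrder.PF6Sib6
import Cfsg.Agent.Lib.Char.FrobPair

/-!
# Peterfalvi section 6: the set of the irreducible characters nontrivial on a Frobenius kernel

* the description by induced characters,
* coherence of a set of irreducible characters of constant degree, without oddness,
* Frobenius pairs whose kernel has odd order and is nonabelian have odd order,
* the counting in the abelian case.
-/

set_option autoImplicit false

namespace Cfsg.Agent.Lib.OddOrder.PF6Rel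

open Cfsg Subgroup
open Cfsg.Agent.Lib.Char.Induced Cfsg.Agent.Lib.Char.Coherence Cfsg.Agent.Lib.Char.Virtual
open Cfsg.Agent.Lib.Char.CoherenceSys
open Cfsg.Agent.Lib.OddOrder.PF7Coh Cfsg.Agent.Lib.OddOrder.PF6Basic

universe u v

section Rel

variable {L : Type u} [Group L] [Fintype L] (K : Subgroup L) [hK : K.Normal]

/-- The irreducible characters nontrivial on the Frobenius kernel are the induced ones. -/
theorem rel_eq_S (hC : ∀ n ∈ K, n ≠ 1 → centralizer ({n} : Set L) ≤ K) :
    {χ : L → ℂ | IsIrrCharacter L χ ∧ ∃ k ∈ K, χ k ≠ χ 1} = inducedIrrAbove K ⊥ := by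
  classical
  haveI : Fintype K := Fintype.ofFinite K
  ext χ
  constructor
  · rintro ⟨hχ, k, hk, hne⟩
    obtain ⟨φ, hφ, rfl⟩ := Cfsg.Agent.Lib.Char.IndFrob.exists_irr_eq_indFun_of_centralizer_le K hC χ hχ
      ⟨k, hk, hne⟩
    refine (ind_mem_S_iff K ⊥ hφ).mpr ⟨?_, fun a ha => ?_⟩
    · rintro rfl
      apply hne
      have key : ∀ x ∈ K, indFun K (fun _ : K => (1 : ℂ)) x =
          (Nat.card K : ℂ)⁻¹ * ∑ _y : L, (1 : ℂ) := by
        intro x hx
        rw [indFun_apply]
        congr 1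
        refine Finset.sum_congr rfl fun y _ => ?_
        have hm : y⁻¹ * x * y ∈ K := by
          have := hK.conj_mem x hx y⁻¹
          simpa using this
        rw [extendByZero_of_mem K _ hm]
      rw [key k hk, key 1 K.one_mem]
    · have : a = 1 := Subtype.ext (by simpa using ha)
      rw [this]
  · intro hχ
    obtain ⟨θ, hθ, hθ1, -, rfl⟩ := hχ
    have hirr := Cfsg.Agent.Lib.Char.IndFrob.isIrrCharacter_indFun_of_centralizer_le K hC θ hθ hθ1
    refine ⟨hirr, ?_⟩
    by_contra hcon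
    push Not at hcon
    -- the restriction is a multiple of the principal character
    have h1 : classInner (indFun K θ) (indFun K θ) = 1 := classInner_irr_self hirr
    have hχc := Cfsg.Agent.Lib.Char.Basic.isCharacter_of_isIrrCharacter hirr
    rw [frobenius_reciprocity K θ _ (Cfsg.Agent.Lib.Char.Basic.isClassFunction_of_isCharacter hχc)] at h1
    have h2 : (fun k : K => indFun K θ (k : L)) = (indFun K θ 1) • (fun _ : K => (1 : ℂ)) := by
      funext k
      rw [hcon k k.2]
      simp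
    rw [h2, Cfsg.Agent.Lib.Char.Virtual.classInner_smul_right,
      classInner_irr_of_ne hθ Cfsg.Agent.Lib.Char.Burnside2.isIrrCharacter_one hθ1, mul_zero] at h1
    exact zero_ne_one h1

end Rel

section Uniform

variable {L : Type u} [Group L] [Fintype L] {G : Type v} [Group G] [Fintype G]

/-- Irreducible characters of constant degree: at least two of them are coherent for any isometry. -/
theorem coherent_of_uniform (S : Set (L → ℂ)) (hirr : ∀ χ ∈ S, IsIrrCharacter L χ)
    (hdeg : ∀ φ ∈ S, ∀ ψ ∈ S, φ 1 = ψ 1) (h2 : ∃ a ∈ S, ∃ b ∈ S, a ≠ b) (τ : (L → ℂ) → (G → ℂ))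
    (hτ : IsLinearIsometryOn (zspanOn S {1}ᶜ) τ) (hτ1 : ∀ α ∈ zspanOn S {1}ᶜ, τ α 1 = 0) :
    IsCoherent S {1}ᶜ τ := by
  classical
  have hsub : ∀ s ∈ S, ∀ t ∈ S, s - t ∈ zspanOn S {1}ᶜ := by
    intro s hs t ht
    rw [mem_zspanOn_compl_one]
    refine ⟨zspan_sub (mem_zspan_of_mem hs) (mem_zspan_of_mem ht), ?_⟩
    show s 1 - t 1 = 0
    rw [hdeg s hs t ht, sub_self]
  let D : S → S → G → ℂ := fun s t => τ (s.1 - t.1)
  have hadd : ∀ s t u, D s t + D t u = D s u := by
    intro s t u
    show τ _ + τ _ = τ _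
    rw [← hτ.1 _ (hsub _ s.2 _ t.2) _ (hsub _ t.2 _ u.2)]
    congr 1
    abel
  have hgen : ∀ s t, IsGeneralizedCharacter G (D s t) := fun s t => hτ.2.2.2 _ (hsub _ s.2 _ t.2)
  have h1 : ∀ s t, D s t 1 = 0 := fun s t => hτ1 _ (hsub _ s.2 _ t.2)
  have hne' : ∀ {a b : S}, a ≠ b → a.1 ≠ b.1 := fun h h2 => h (Subtype.ext h2)
  have hinner : ∀ s t u, s ≠ t → s ≠ u → classInner (D s t) (D s u) = if t = u then 2 else 1 := by
    intro s t u hst hsu
    show classInner (τ _) (τ _) = _
    rw [hτ.2.2.1 _ (hsub _ s.2 _ t.2) _ (hsub _ s.2 _ u.2), classInner_sub_left, classInner_sub_right,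
      classInner_sub_right, classInner_irr_self (hirr _ s.2), classInner_irr_of_ne (hirr _ s.2)
      (hirr _ u.2) (hne' hsu), classInner_irr_of_ne (hirr _ t.2) (hirr _ s.2) (hne' hst.symm)]
    by_cases htu : t = u
    · subst htu
      rw [classInner_irr_self (hirr _ t.2), if_pos rfl]
      norm_num
    · rw [classInner_irr_of_ne (hirr _ t.2) (hirr _ u.2) (hne' htu), if_neg htu]
      simp
  obtain ⟨ε, f, hε, hinj, hD⟩ := Cfsg.Agent.Lib.Char.FrobPair.exists_signed_injection D hadd hgen h1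
    (fun s t u h1' h2' => by convert hinner s t u h1' h2')
  have hfin : S.Finite := by
    have hfin : (Set.range (Subtype.val : IrrCharacter L → (L → ℂ))).Finite := Set.finite_range _
    exact hfin.subset fun ξ hξ => ⟨⟨ξ, hirr ξ hξ⟩, rfl⟩
  set Sf : Finset (L → ℂ) := hfin.toFinset with hSf
  have hSfm : ∀ φ, φ ∈ Sf ↔ φ ∈ S := fun φ => hfin.mem_toFinset
  have hSfc : (Sf : Set (L → ℂ)) = S := hfin.coe_toFinset
  let X : (L → ℂ) → (G → ℂ) := fun φ => if h : φ ∈ S then ε • (f ⟨φ, h⟩ : G → ℂ) else 0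
  have hXm : ∀ φ (h : φ ∈ S), X φ = ε • (f ⟨φ, h⟩ : G → ℂ) := fun φ h => by simp [X, h]
  have hsq : ε * ε = 1 := by
    rcases hε with rfl | rfl <;> simp
  have hne : ∀ φ ∈ Sf, classInner φ φ ≠ 0 := fun φ hφ => by
    rw [classInner_irr_self (hirr φ ((hSfm φ).mp hφ))]
    exact one_ne_zero
  have orth : ∀ φ ∈ Sf, ∀ ψ ∈ Sf, φ ≠ ψ → classInner φ ψ = 0 := fun φ hφ ψ hψ h =>
    classInner_irr_of_ne (hirr φ ((hSfm φ).mp hφ)) (hirr ψ ((hSfm ψ).mp hψ)) h
  have hvirt : ∀ φ ∈ Sf, IsGeneralizedCharacter G (X φ) := fun φ hφ => by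
    have hφ' := (hSfm φ).mp hφ
    rw [hXm φ hφ']
    rcases hε with rfl | rfl
    · rw [one_smul]
      exact isGeneralized_of_isIrr (f _).2
    · rw [neg_smul, one_smul]
      exact isGeneralized_neg (isGeneralized_of_isIrr (f _).2)
  have hf : ∀ φ ∈ Sf, ∀ ψ ∈ Sf, classInner (X φ) (X ψ) = classInner φ ψ := by
    intro φ hφ ψ hψ
    have hφ' := (hSfm φ).mp hφ
    have hψ' := (hSfm ψ).mp hψ
    have hc : (starRingEnd ℂ) ε * ε = 1 := by
      rcases hε with rfl | rfl <;> simp
    rw [hXm φ hφ', hXm ψ hψ', classInner_smul_left, classInner_smul_right]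
    by_cases h : φ = ψ
    · subst h
      rw [classInner_irr_self (f _).2, classInner_irr_self (hirr φ hφ'), mul_one]
      rcases hε with rfl | rfl <;> simp
    · rw [classInner_irr_of_ne (hirr φ hφ') (hirr ψ hψ') h, classInner_irr_of_ne (f _).2 (f _).2
        (fun h3 => h (congrArg Subtype.val (hinj (Subtype.ext h3))))]
      simp
  have hiso := isLinearIsometryOn_extend X hne orth hvirt hf
  rw [hSfc] at hiso
  obtain ⟨a, ha, b, hb, hab⟩ := h2
  refine ⟨⟨a - b, hsub a ha b hb, sub_ne_zero.mpr hab⟩, extend Sf X, hiso, ?_⟩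
  intro α hα
  have hα' := mem_zspanOn_compl_one.mp hα
  have hext : ∀ φ ∈ S, extend Sf X φ = X φ := fun φ hφ =>
    extend_of_mem X hne orth ((hSfm φ).mpr hφ)
  have hzero : τ 0 = 0 := by
    have h0 : (0 : L → ℂ) ∈ zspanOn S {1}ᶜ := mem_zspanOn_compl_one.mpr ⟨zspan_zero _, rfl⟩
    have := hτ.2.1 _ h0 0
    simpa using this
  have key : ∃ n : ℤ, α - n • a ∈ zspanOn S {1}ᶜ ∧ extend Sf X α - n • X a = τ (α - n • a) := by
    refine zspan_induction (P := fun α => ∃ n : ℤ, α - n • a ∈ zspanOn S {1}ᶜ ∧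
      extend Sf X α - n • X a = τ (α - n • a)) ?_ ?_ ?_ ?_ hα'.1
    · intro y hy
      refine ⟨1, by simpa using hsub y hy a ha, ?_⟩
      rw [one_smul, one_smul, hext y hy, hXm y hy, hXm a ha]
      have := hD ⟨y, hy⟩ ⟨a, ha⟩
      rw [smul_sub] at this
      exact this.symm
    · refine ⟨0, ?_, ?_⟩
      · simpa using mem_zspanOn_compl_one.mpr ⟨zspan_zero S, rfl⟩
      · simp [extend_zero, hzero]
    · rintro x y ⟨n, hn, hn'⟩ ⟨m, hm, hm'⟩
      have he : x + y - (n + m) • a = (x - n • a) + (y - m • a) := by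
        rw [add_smul]
        abel
      have hmem : (x - n • a) + (y - m • a) ∈ zspanOn S {1}ᶜ := by
        rw [mem_zspanOn_compl_one] at hn hm ⊢
        refine ⟨zspan_add hn.1 hm.1, ?_⟩
        show (x - n • a) 1 + (y - m • a) 1 = 0
        rw [hn.2, hm.2, add_zero]
      refine ⟨n + m, by rw [he]; exact hmem, ?_⟩
      rw [he, hτ.1 _ hn _ hm, ← hn', ← hm', extend_add, add_smul]
      abel
    · rintro k x ⟨n, hn, hn'⟩
      have he : k • x - (k * n) • a = k • (x - n • a) := by
        rw [mul_smul, smul_sub]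
      have hmem : k • (x - n • a) ∈ zspanOn S {1}ᶜ := by
        rw [mem_zspanOn_compl_one] at hn ⊢
        refine ⟨zspan_zsmul k hn.1, ?_⟩
        show k • (x - n • a) 1 = 0
        rw [hn.2, smul_zero]
      refine ⟨k * n, by rw [he]; exact hmem, ?_⟩
      rw [he, hτ.2.1 _ hn, ← hn', extend_zsmul, mul_smul, smul_sub]
  obtain ⟨n, hn, hn'⟩ := key
  have hn0 : n = 0 := by
    have h3 := (mem_zspanOn_compl_one.mp hn).2
    have h4 : α 1 - n • a 1 = 0 := h3
    rw [hα'.2, zero_sub, neg_eq_zero, zsmul_eq_mul] at h4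
    have h5 := (mul_eq_zero.mp h4).resolve_right (irr_one_ne_zero (hirr a ha))
    exact_mod_cast h5
  rw [hn0] at hn'
  simpa using hn'

end Uniform

section Group

variable {L : Type u} [Group L] [Finite L]

/-- If `|K| = [L:K] + 1` then `L` acts transitively on `K#`, and `K` is abelian. -/
theorem transitive_of_card (K : Subgroup L) [hK : K.Normal]
    (hC : ∀ n ∈ K, n ≠ 1 → centralizer ({n} : Set L) ≤ K) (he : Nat.card K = K.index + 1) :
    (∀ a ∈ K, a ≠ 1 → ∀ b ∈ K, b ≠ 1 → ∃ g : L, g * a * g⁻¹ = b) ∧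
      ∀ a ∈ K, ∀ b ∈ K, a * b = b * a := by
  classical
  haveI := Fintype.ofFinite L
  let P := {q : L // q ∈ K ∧ q ≠ 1}
  letI : MulAction L P :=
    { smul := fun g q => ⟨g * q.1 * g⁻¹, hK.conj_mem _ q.2.1 _, fun h => q.2.2 (by
        have h2 : g * q.1 = g := by
          rw [mul_inv_eq_one] at h
          exact h
        simpa using h2)⟩
      one_smul := fun q => Subtype.ext (by
        show 1 * q.1 * 1⁻¹ = q.1
        simp)
      mul_smul := fun a b q => Subtype.ext (by
        show (a * b) * q.1 * (a * b)⁻¹ = a * (b * q.1 * b⁻¹) * a⁻¹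
        group) }
  have hsm : ∀ (g : L) (q : P), ((g • q : P) : L) = g * q.1 * g⁻¹ := fun _ _ => rfl
  have hcardP : Nat.card P = K.index := by
    have h3 : Nat.card P = (Finset.univ.filter (fun q : L => q ∈ K ∧ q ≠ 1)).card := by
      rw [Nat.card_eq_fintype_card, Fintype.card_subtype]
    have h4 : Nat.card K = (Finset.univ.filter (fun q : L => q ∈ K)).card := by
      rw [Nat.card_eq_fintype_card, Fintype.card_subtype]
    have h5 : Finset.univ.filter (fun q : L => q ∈ K ∧ q ≠ 1) =
        (Finset.univ.filter (fun q : L => q ∈ K)).erase 1 := by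
      ext q
      simp only [Finset.mem_filter, Finset.mem_univ, true_and, Finset.mem_erase]
      tauto
    rw [h3, h5, Finset.card_erase_of_mem (by simp [K.one_mem]), ← h4, he]
    simp
  have hstab : ∀ q : P, MulAction.stabilizer L q ≤ K := by
    rintro ⟨q, hq, hq1⟩ x hx
    rw [MulAction.mem_stabilizer_iff, Subtype.ext_iff, hsm] at hx
    apply hC q hq hq1
    rw [mem_centralizer_singleton_iff]
    exact mul_inv_eq_iff_eq_mul.mp hx
  have hepos : 0 < K.index := Nat.pos_of_ne_zero Subgroup.index_ne_zero_of_finite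
  have horbit : ∀ q : P, (MulAction.orbit L q).ncard = (MulAction.stabilizer L q).index :=
    fun q => (MulAction.index_stabilizer L q).symm
  have hle : ∀ q : P, K.index ≤ (MulAction.stabilizer L q).index := fun q =>
    Nat.le_of_dvd (Nat.pos_of_ne_zero Subgroup.index_ne_zero_of_finite)
      (Subgroup.index_dvd_of_le (hstab q))
  have hle2 : ∀ q : P, (MulAction.orbit L q).ncard ≤ K.index := fun q => by
    rw [← hcardP, ← Set.ncard_univ]
    exact Set.ncard_le_ncard (Set.subset_univ _) (Set.toFinite _)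
  have htrans : ∀ q : P, MulAction.orbit L q = Set.univ := by
    intro q
    apply Set.eq_of_subset_of_ncard_le (Set.subset_univ _)
    rw [Set.ncard_univ, hcardP, horbit]
    exact hle q
  constructor
  · intro a ha ha1 b hb hb1
    have h1 : (⟨b, hb, hb1⟩ : P) ∈ MulAction.orbit L (⟨a, ha, ha1⟩ : P) := by
      rw [htrans]
      trivial
    obtain ⟨g, hg⟩ := h1
    exact ⟨g, congrArg Subtype.val hg⟩
  · intro a ha b hb
    by_cases ha1 : a = 1
    · simp [ha1]
    have h1 : MulAction.stabilizer L (⟨a, ha, ha1⟩ : P) = K := by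
      apply Subgroup.eq_of_le_of_card_ge (hstab _)
      have h2 := Subgroup.card_mul_index (MulAction.stabilizer L (⟨a, ha, ha1⟩ : P))
      have h3 := Subgroup.card_mul_index K
      have h4 : (MulAction.stabilizer L (⟨a, ha, ha1⟩ : P)).index = K.index :=
        le_antisymm (by rw [← horbit]; exact hle2 _) (hle _)
      rw [h4] at h2
      rw [← h3] at h2
      exact (Nat.eq_of_mul_eq_mul_right hepos h2).ge
    rw [← h1] at hb
    rw [MulAction.mem_stabilizer_iff, Subtype.ext_iff, hsm] at hb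
    exact (mul_inv_eq_iff_eq_mul.mp hb).symm

/-- If `|K| = [L:K] + 1`, all elements of `K` have the same prime order. -/
theorem pow_eq_one_of_card (K : Subgroup L) [hK : K.Normal]
    (hC : ∀ n ∈ K, n ≠ 1 → centralizer ({n} : Set L) ≤ K) (he : Nat.card K = K.index + 1) {r : ℕ}
    (hr : r.Prime) (hd : r ∣ Nat.card K) : ∀ a ∈ K, a ^ r = 1 := by
  classical
  haveI : Fact r.Prime := ⟨hr⟩
  obtain ⟨x, hx⟩ := exists_prime_orderOf_dvd_card' (G := K) r hd
  have hxo : orderOf ((x : K) : L) = r := by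
    rw [← hx]
    exact Subgroup.orderOf_coe x
  have hx1 : (x : L) ≠ 1 := by
    intro h
    rw [h, orderOf_one] at hxo
    exact hr.one_lt.ne hxo
  intro a ha
  by_cases ha1 : a = 1
  · simp [ha1]
  obtain ⟨g, hg⟩ := (transitive_of_card K hC he).1 x x.2 hx1 a ha ha1
  rw [← hg, conj_pow, ← hxo, pow_orderOf_eq_one]
  simp

/-- A nontrivial nilpotent normal subgroup is not its own commutator. -/
theorem commutator_lt (K : Subgroup L) [hK : K.Normal] (hnil : Group.IsNilpotent K) (hK1 : K ≠ ⊥) :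
    ⁅K, K⁆ < K := by
  haveI := hnil
  refine lt_of_le_of_ne (Subgroup.commutator_le_self _) fun h => hK1 ?_
  haveI : (((⊥ : Subgroup L)).subgroupOf K).Normal := Subgroup.normal_subgroupOf
  have hnil' : Group.IsNilpotent (↥K ⧸ (⊥ : Subgroup L).subgroupOf K) := inferInstance
  have h2 := Cfsg.Agent.Lib.OddOrder.PF6Group.le_of_le_commutator_sup_subgroup ⊥ K K bot_le le_rfl hnil'
    (by rw [sup_bot_eq, h])
  exact le_bot_iff.mp h2

end Group

section Pair

variable {G : Type u} [Group G] [Fintype G] {H L : Subgroup G}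

/-- The basic data from the centralizer hypothesis. -/
theorem datum_of_centralizer (P : Subgroup G) (hTI : IsTISubset (P : Set G))
    (hC : ∀ k ∈ P, k ≠ 1 → centralizer ({k} : Set G) ≤ P) :
    Datum P (normalizer (P : Set G)) where
  le := Subgroup.le_normalizer
  normal := by
    intro x hx h hh
    exact (Subgroup.mem_normalizer_iff.mp hx h).mp hh
  frob := fun h hh h1 => inf_le_right.trans (hC h hh h1)
  ti := by
    intro g h hh h1 hg
    by_contra hgL
    exact h1 (hTI g hgL h hh hg)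

/-- A Frobenius pair whose nonabelian kernel has odd order has odd order. -/
theorem odd_of_nonabelian (D : Datum H L) (hodd : Odd (Nat.card H)) (hna : ¬ IsMulCommutative H) :
    Odd (Nat.card L) := by
  classical
  by_contra hcon
  rw [Nat.not_odd_iff_even] at hcon
  haveI : Fact (Nat.Prime 2) := ⟨Nat.prime_two⟩
  obtain ⟨t, ht⟩ := exists_prime_orderOf_dvd_card' (G := L) 2 hcon.two_dvd
  have hto : orderOf ((t : L) : G) = 2 := by
    rw [← ht]
    exact Subgroup.orderOf_coe t
  have ht2 : ((t : L) : G) * ((t : L) : G) = 1 := by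
    rw [← pow_two, ← hto, pow_orderOf_eq_one]
  have htinv : ((t : L) : G)⁻¹ = (t : L) := inv_eq_of_mul_eq_one_left ht2
  have htH : ((t : L) : G) ∉ H := by
    intro h
    have h1 : orderOf (⟨_, h⟩ : H) = 2 := by
      rw [← hto]
      exact Subgroup.orderOf_mk _ _
    have h2 : 2 ∣ Nat.card H := by
      rw [← h1]
      exact orderOf_dvd_natCard _
    exact (Nat.not_even_iff_odd.mpr hodd) (even_iff_two_dvd.mpr h2)
  let φ : H →* H :=
    { toFun := fun x => ⟨(t : G) * x * (t : G)⁻¹, D.normal t t.2 x x.2⟩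
      map_one' := by
        apply Subtype.ext
        simp
      map_mul' := by
        intro x y
        apply Subtype.ext
        simp only [Subgroup.coe_mul]
        group }
  have hφ : ∀ x : H, ((φ x : H) : G) = (t : G) * x * (t : G)⁻¹ := fun _ => rfl
  have hfix : MonoidHom.FixedPointFree φ := by
    intro x hx
    by_contra hx1
    have h1 : (x : G) ≠ 1 := fun h => hx1 (Subtype.ext h)
    have h2 : (t : G) * x * (t : G)⁻¹ = x := (hφ x).symm.trans (congrArg Subtype.val hx)
    apply htH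
    apply D.frob x x.2 h1
    refine Subgroup.mem_inf.mpr ⟨t.2, ?_⟩
    rw [mem_centralizer_singleton_iff]
    exact mul_inv_eq_iff_eq_mul.mp h2
  have hinv : Function.Involutive φ := by
    intro x
    apply Subtype.ext
    rw [hφ, hφ, htinv]
    calc (t : G) * ((t : G) * x * (t : G)) * (t : G)
        = ((t : G) * (t : G)) * x * ((t : G) * (t : G)) := by group
      _ = x := by rw [ht2]; simp
  apply hna
  haveI := Fintype.ofFinite H
  exact IsMulCommutative.of_comm fun a b => (hfix.commute_all_of_involutive hinv a b).eq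

variable [Fintype L]

/-- The relevant characters of a Frobenius pair, in terms of the ambient group. -/
theorem rel_eq_SS (D : Datum H L) :
    {χ : L → ℂ | IsIrrCharacter L χ ∧ ∃ x : L, (x : G) ∈ H ∧ χ x ≠ χ 1} = SS H L := by
  haveI := D.normalK
  have h := rel_eq_S (H.subgroupOf L) D.frobK
  show _ = inducedIrrAbove (H.subgroupOf L) ⊥
  rw [← h]
  simp only [Subgroup.mem_subgroupOf]

/-- The counting for an abelian kernel. -/
theorem card_SS_of_abelian (D : Datum H L) (hab : ∀ a ∈ H, ∀ b ∈ H, a * b = b * a) :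
    (∀ χ ∈ SS H L, χ 1 = ((H.subgroupOf L).index : ℂ)) ∧
      ((SS H L).ncard) * (H.subgroupOf L).index + 1 = Nat.card (H.subgroupOf L) := by
  classical
  haveI := D.normalK
  haveI : Fintype (H.subgroupOf L) := Fintype.ofFinite _
  have hdeg : ∀ χ ∈ SS H L, χ 1 = ((H.subgroupOf L).index : ℂ) := by
    rintro χ ⟨θ, hθ, -, -, rfl⟩
    rw [indFun_one, Cfsg.Agent.Lib.Char.FrobPair.degree_eq_one_of_comm
      (fun a b => Subtype.ext (Subtype.ext (hab _ (Subgroup.mem_subgroupOf.mp a.2) _
        (Subgroup.mem_subgroupOf.mp b.2)))) hθ, mul_one]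
  refine ⟨hdeg, ?_⟩
  have hfin : (SS H L).Finite := by
    have hfin : (Set.range (Subtype.val : IrrCharacter L → (L → ℂ))).Finite := Set.finite_range _
    exact hfin.subset fun ξ hξ => ⟨⟨ξ, SS_irr D hξ⟩, rfl⟩
  set Φ : Finset (L → ℂ) := hfin.toFinset with hΦ
  have hΦm : ∀ φ, φ ∈ Φ ↔ φ ∈ SS H L := fun φ => hfin.mem_toFinset
  have hΦc : (Φ : Set (L → ℂ)) = SS H L := hfin.coe_toFinset
  let d : (L → ℂ) → ℕ := fun _ => (H.subgroupOf L).index
  let n : (L → ℂ) → ℕ := fun _ => 1
  have hsum := sum_SA (H.subgroupOf L) ⊥ Φ hΦc d n (fun φ hφ => hdeg φ ((hΦm φ).mp hφ))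
    (fun φ hφ => by
      rw [classInner_irr_self (SS_irr D ((hΦm φ).mp hφ))]
      simp [n])
  simp only [d, n, Nat.cast_one, div_one, Finset.sum_const, nsmul_eq_mul] at hsum
  rw [Subgroup.relIndex_bot_left] at hsum
  have hepos : 0 < (H.subgroupOf L).index := Nat.pos_of_ne_zero Subgroup.index_ne_zero_of_finite
  have he' : ((H.subgroupOf L).index : ℝ) ≠ 0 := by exact_mod_cast hepos.ne'
  have h1 : (Φ.card : ℝ) * ((H.subgroupOf L).index : ℝ) = (Nat.card (H.subgroupOf L) : ℝ) - 1 := by
    apply mul_left_cancel₀ he'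
    rw [← hsum]
    ring
  have h2 : (SS H L).ncard = Φ.card := by
    rw [← hΦc, Set.ncard_coe_finset]
  rw [h2]
  have h3 : ((Φ.card * (H.subgroupOf L).index + 1 : ℕ) : ℝ) = (Nat.card (H.subgroupOf L) : ℝ) := by
    push_cast
    rw [h1]
    ring
  exact_mod_cast h3

end Pair

end Cfsg.Agent.Lib.OddOrder.PF6Rel
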