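import Mathlib
import Cfsg.Agent.Lib.OddOrder.PF6Feit1
import Cfsg.Agent.Lib.OddOrder.PF6Rel
import Cfsg.Agent.Lib.OddOrder.PF7Group
import Cfsg.Agent.Lib.Char.BrauerSCNum

/-!
# Feit's coherence theorem, part 2: the levels of a Frobenius kernel
-/

set_option autoImplicit false

namespace Cfsg.Agent.Lib.OddOrder.PF6Feit2

open Cfsg Subgroup
open Cfsg.Agent.Lib.Char.Induced Cfsg.Agent.Lib.Char.Coherence Cfsg.Agent.Lib.Char.Virtual
open Cfsg.Agent.Lib.OddOrder.PF6Basic Cfsg.Agent.Lib.OddOrder.PF6Feit1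

universe u v

section Levels

variable {L : Type u} [Group L] [Fintype L] {G : Type v} [Group G] [Fintype G]
  (K : Subgroup L) [hK : K.Normal]

/-- The degree of a member, divided by the index. -/
noncomputable def aOf (φ : L → ℂ) : ℕ := natOf (φ 1) / K.index

omit hK in
theorem index_pos' : 0 < K.index := Nat.pos_of_ne_zero Subgroup.index_ne_zero_of_finite

omit hK in
theorem ind_one_eq {θ : K → ℂ} {t : ℕ} (ht : θ 1 = t) :
    indFun K θ 1 = ((K.index * t : ℕ) : ℂ) := by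
  rw [indFun_one, ht]
  push_cast
  ring

omit hK in
theorem aOf_ind {θ : K → ℂ} {t : ℕ} (ht : θ 1 = t) : aOf K (indFun K θ) = t := by
  unfold aOf
  rw [ind_one_eq K ht, natOf_natCast, Nat.mul_div_cancel_left _ (index_pos' K)]

omit hK in
/-- The levels are decreasing. -/
theorem S_anti {A B : Subgroup L} (hBA : B ≤ A) : inducedIrrAbove K A ⊆ inducedIrrAbove K B := by
  rintro φ ⟨θ, hθ, hne, hA, rfl⟩
  exact ⟨θ, hθ, hne, fun a ha => hA a (hBA ha), rfl⟩

theorem irr_of_mem (hC : ∀ n ∈ K, n ≠ 1 → centralizer ({n} : Set L) ≤ K) {A : Subgroup L}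
    {φ : L → ℂ} (hφ : φ ∈ inducedIrrAbove K A) : IsIrrCharacter L φ := by
  obtain ⟨θ, hθ, hne, -, rfl⟩ := hφ
  exact Cfsg.Agent.Lib.Char.IndFrob.isIrrCharacter_indFun_of_centralizer_le K hC θ hθ hne

theorem finite_S (hC : ∀ n ∈ K, n ≠ 1 → centralizer ({n} : Set L) ≤ K) (A : Subgroup L) :
    (inducedIrrAbove K A).Finite := by
  have hfin : (Set.range (Subtype.val : IrrCharacter L → (L → ℂ))).Finite := Set.finite_range _
  exact hfin.subset fun ξ hξ => ⟨⟨ξ, irr_of_mem K hC hξ⟩, rfl⟩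

omit hK in
theorem deg_of_mem {A : Subgroup L} {φ : L → ℂ} (hφ : φ ∈ inducedIrrAbove K A) :
    φ 1 = ((K.index * aOf K φ : ℕ) : ℂ) := by
  obtain ⟨θ, hθ, -, -, rfl⟩ := hφ
  obtain ⟨t, -, ht⟩ := Cfsg.Agent.Lib.Char.Ortho.irr_degree_pos hθ
  rw [aOf_ind K ht, ind_one_eq K ht]

theorem baseData (hC : ∀ n ∈ K, n ≠ 1 → centralizer ({n} : Set L) ≤ K) {τ : (L → ℂ) → (G → ℂ)}
    (hτ : IsLinearIsometryOn (zspanOn (inducedIrrAbove K ⊥) {1}ᶜ) τ) {χ₁ : L → ℂ}
    (hχ₁ : χ₁ ∈ inducedIrrAbove K ⊥) (h1 : χ₁ 1 = (K.index : ℂ)) :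
    BaseData (inducedIrrAbove K ⊥) τ (aOf K) χ₁ := by
  have he : (K.index : ℂ) ≠ 0 := by exact_mod_cast (index_pos' K).ne'
  refine ⟨fun φ hφ => irr_of_mem K hC hφ, hτ, hχ₁, ?_, ?_⟩
  · unfold aOf
    rw [h1, natOf_natCast, Nat.div_self (index_pos' K)]
  · intro φ hφ
    rw [deg_of_mem K hφ, h1]
    push_cast
    ring

/-- The sum of the squares of the relative degrees. -/
theorem sum_a (hC : ∀ n ∈ K, n ≠ 1 → centralizer ({n} : Set L) ≤ K) (A : Subgroup L) [A.Normal]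
    (Φ : Finset (L → ℂ)) (hΦ : (Φ : Set (L → ℂ)) = inducedIrrAbove K A) :
    K.index * ∑ φ ∈ Φ, aOf K φ ^ 2 + 1 = A.relIndex K := by
  have hmem : ∀ φ ∈ Φ, φ ∈ inducedIrrAbove K A := fun φ hφ => by
    rw [← hΦ]
    exact hφ
  have h := sum_SA K A Φ hΦ (fun φ => K.index * aOf K φ) (fun _ => 1)
    (fun φ hφ => deg_of_mem K (hmem φ hφ)) (fun φ hφ => by
      rw [classInner_irr_self (irr_of_mem K hC (hmem φ hφ))]
      simp)
  have he : (K.index : ℝ) ≠ 0 := by exact_mod_cast (index_pos' K).ne'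
  have h2 : (K.index : ℝ) * ((K.index : ℝ) * ∑ φ ∈ Φ, ((aOf K φ : ℝ)) ^ 2) =
      (K.index : ℝ) * ((A.relIndex K : ℝ) - 1) := by
    rw [← h, Finset.mul_sum, Finset.mul_sum]
    refine Finset.sum_congr rfl fun φ _ => ?_
    push_cast
    ring
  have h3 := mul_left_cancel₀ he h2
  have h4 : ((K.index * ∑ φ ∈ Φ, aOf K φ ^ 2 + 1 : ℕ) : ℝ) = (A.relIndex K : ℝ) := by
    push_cast
    rw [h3]
    ring
  exact_mod_cast h4

/-- The index of `K` divides `[K:A] - 1`. -/
theorem dvd_relIndex_sub_one (hC : ∀ n ∈ K, n ≠ 1 → centralizer ({n} : Set L) ≤ K) (A : Subgroup L)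
    [A.Normal] : K.index ∣ A.relIndex K - 1 := by
  have h := sum_a K hC A (finite_S K hC A).toFinset (finite_S K hC A).coe_toFinset
  rw [← h]
  simp

/-- Passing from one level to another. -/
theorem level_step (hC : ∀ n ∈ K, n ≠ 1 → centralizer ({n} : Set L) ≤ K) {τ : (L → ℂ) → (G → ℂ)}
    {χ₁ : L → ℂ} (h : BaseData (inducedIrrAbove K ⊥) τ (aOf K) χ₁) (A B : Subgroup L) [A.Normal]
    (hχ₁A : χ₁ ∈ inducedIrrAbove K A) {w : G → ℂ} (hwv : IsGeneralizedCharacter G w)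
    (hw : classInner w w = 1) (hg : Good τ (aOf K) χ₁ (inducedIrrAbove K A) w)
    (hbig : ∀ χ ∈ inducedIrrAbove K B, (2 * aOf K χ + 1) * K.index + 1 < A.relIndex K) :
    Good τ (aOf K) χ₁ (inducedIrrAbove K B) w := by
  intro χ hχ hχ1
  set Φ := (finite_S K hC A).toFinset with hΦ
  have hc : (Φ : Set (L → ℂ)) = inducedIrrAbove K A := (finite_S K hC A).coe_toFinset
  have hm : ∀ φ, φ ∈ Φ ↔ φ ∈ inducedIrrAbove K A := fun φ => (finite_S K hC A).mem_toFinset
  refine h.good_step Φ (fun φ hφ => S_subset_bot K A ((hm φ).mp hφ)) ((hm _).mpr hχ₁A) hwv hw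
    (by rw [hc]; exact hg) (S_subset_bot K B hχ) hχ1 ?_
  have h1 := sum_a K hC A Φ hc
  have h2 := hbig χ hχ
  rw [← h1] at h2
  have h3 : (2 * aOf K χ + 1) * K.index < K.index * ∑ φ ∈ Φ, aOf K φ ^ 2 := by omega
  rw [mul_comm] at h3
  exact lt_of_mul_lt_mul_left h3 (Nat.zero_le _)

/-- The numerics of the central step. -/
theorem num_a (e t x : ℕ) (he : 1 ≤ e) (h1 : t ^ 2 ≤ x) (h2 : 4 * e ^ 2 + 1 < x) (h3 : e ∣ x - 1)
    (h4 : t ≠ 2 * e) : (2 * t + 1) * e + 1 < x := by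
  obtain ⟨q, hq⟩ := h3
  have hx : x = e * q + 1 := by omega
  subst hx
  have h5 : 4 * e < q := by
    have : e * (4 * e) < e * q := by nlinarith
    exact lt_of_mul_lt_mul_left this (Nat.zero_le _)
  by_contra hcon
  have h6 : q ≤ 2 * t + 1 := by
    by_contra h7
    apply hcon
    have : e * (2 * t + 1 + 1) ≤ e * q := Nat.mul_le_mul_left _ (by omega)
    nlinarith
  have h7 : 2 * e + 1 ≤ t := by omega
  nlinarith

/-- A degree is never twice the index. -/
theorem degree_ne (hC : ∀ n ∈ K, n ≠ 1 → centralizer ({n} : Set L) ≤ K) (he : K.index ≠ 1)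
    {θ : K → ℂ} (hθ : IsIrrCharacter K θ) {t : ℕ} (ht : θ 1 = t) : t ≠ 2 * K.index := by
  classical
  rintro rfl
  have h1 := Cfsg.Agent.Lib.Char.BrauerSCNum.degree_dvd (⟨θ, hθ⟩ : IrrCharacter K) _ ht
  have h2 := Cfsg.Agent.Lib.OddOrder.PF7Group.coprime_of_frob K hC
  have h3 : K.index ∣ Nat.card K := (Dvd.intro_left _ rfl).trans h1
  exact he (Nat.Coprime.eq_one_of_dvd h2.symm h3)

/-- The chain of central steps. -/
theorem chain_a (hC : ∀ n ∈ K, n ≠ 1 → centralizer ({n} : Set L) ≤ K) (hnil : Group.IsNilpotent K)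
    (he : K.index ≠ 1) {τ : (L → ℂ) → (G → ℂ)}
    {χ₁ : L → ℂ} (h : BaseData (inducedIrrAbove K ⊥) τ (aOf K) χ₁) {w : G → ℂ}
    (hwv : IsGeneralizedCharacter G w) (hw : classInner w w = 1) :
    ∀ (m : ℕ) (M : Subgroup L) [M.Normal], Nat.card M = m → M ≤ K →
      4 * K.index ^ 2 + 1 < M.relIndex K → χ₁ ∈ inducedIrrAbove K M →
      Good τ (aOf K) χ₁ (inducedIrrAbove K M) w → Good τ (aOf K) χ₁ (inducedIrrAbove K ⊥) w := by
  classical
  intro m
  induction m using Nat.strong_induction_on with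
  | _ m ih =>
    intro M _ hm hMK hbig hχ₁M hg
    by_cases hM : M = ⊥
    · subst hM
      exact hg
    · set B : Subgroup L := ⁅M, K⁆ with hB
      have hBM : B ≤ M := Subgroup.commutator_le_left M K
      have hne : ¬ M ≤ B := by
        intro h1
        apply hM
        haveI := hnil
        have h2 := Cfsg.Agent.Lib.OddOrder.PF6Group.le_of_le_commutator_sup_subgroup ⊥ M K bot_le hMK
          inferInstance (by simpa [hB] using h1)
        exact le_bot_iff.mp h2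
      have hBlt : B < M := lt_of_le_not_ge hBM hne
      have hcent : ∀ x ∈ M, ∀ y ∈ K, x * y * x⁻¹ * y⁻¹ ∈ B := fun x hx y hy =>
        Subgroup.commutator_mem_commutator hx hy
      have hg' : Good τ (aOf K) χ₁ (inducedIrrAbove K B) w := by
        refine level_step K hC h M B hχ₁M hwv hw hg ?_
        rintro χ ⟨θ, hθ, -, hθB, rfl⟩
        obtain ⟨t, -, ht⟩ := Cfsg.Agent.Lib.Char.Ortho.irr_degree_pos hθ
        rw [aOf_ind K ht]
        have h3 := degree_bound (⊤ : Subgroup K) (M.subgroupOf K) (B.subgroupOf K)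
          (Subgroup.comap_mono hBM) le_top
          (fun x hx y _ => ?_) hθ (fun b hb => hθB b (Subgroup.mem_subgroupOf.mp hb)) ht
        · simp only [Subgroup.index_top, one_pow, one_mul, Subgroup.relIndex_top_right] at h3
          exact num_a _ t _ (index_pos' K) h3 hbig (dvd_relIndex_sub_one K hC M) (degree_ne K hC he hθ ht)
        · rw [Subgroup.mem_subgroupOf]
          simpa using hcent _ (Subgroup.mem_subgroupOf.mp hx) _ y.2
      have hcard : Nat.card B < m := by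
        rw [← hm]
        exact Set.ncard_lt_ncard (by exact hBlt) (Set.toFinite _)
      refine ih _ hcard B rfl (hBM.trans hMK) ?_ (S_anti K hBM hχ₁M) hg'
      have h2 : B.relIndex K = B.relIndex M * M.relIndex K :=
        (Subgroup.relIndex_mul_relIndex B M K hBM hMK).symm
      have h3 : 1 ≤ B.relIndex M := Nat.pos_of_ne_zero (by
        simp only [Subgroup.relIndex]
        exact Subgroup.index_ne_zero_of_finite)
      rw [h2]
      nlinarith

end Levels

end Cfsg.Agent.Lib.OddOrder.PF6Feit2
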