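import Mathlib
import Cfsg.Agent.Lib.OddOrder.PF6Sib2
import Cfsg.Agent.Lib.OddOrder.PF6Group
import Cfsg.Agent.Lib.OddOrder.PF6Group2

/-!
# Feit's coherence theorem, part 3: the step for a kernel which is not a `p`-group
-/

set_option autoImplicit false

namespace Cfsg.Agent.Lib.OddOrder.PF6Feit3

open Subgroup

universe u

variable {L : Type u} [Group L] [Finite L]

/-- The subgroup of those elements of `C` whose `n`-th power lies in `Z`, when `C/Z` is abelian. -/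
def torsionMod (C Z : Subgroup L) [Z.Normal] (hab : ∀ x ∈ C, ∀ y ∈ C, x * y * x⁻¹ * y⁻¹ ∈ Z)
    (n : ℕ) : Subgroup L where
  carrier := {x | x ∈ C ∧ (QuotientGroup.mk' Z x) ^ n = 1}
  one_mem' := ⟨C.one_mem, by simp⟩
  mul_mem' := by
    rintro x y ⟨hx, hx'⟩ ⟨hy, hy'⟩
    refine ⟨C.mul_mem hx hy, ?_⟩
    have hc : Commute (QuotientGroup.mk' Z x) (QuotientGroup.mk' Z y) := by
      have h1 : QuotientGroup.mk' Z (x * y * x⁻¹ * y⁻¹) = 1 :=
        (QuotientGroup.eq_one_iff _).mpr (hab x hx y hy)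
      simp only [map_mul, map_inv] at h1
      have h2 := mul_inv_eq_one.mp h1
      exact mul_inv_eq_iff_eq_mul.mp h2
    rw [map_mul, hc.mul_pow, hx', hy', one_mul]
  inv_mem' := by
    rintro x ⟨hx, hx'⟩
    refine ⟨C.inv_mem hx, ?_⟩
    rw [map_inv, inv_pow, hx', inv_one]

theorem mem_torsionMod {C Z : Subgroup L} [Z.Normal] {hab : ∀ x ∈ C, ∀ y ∈ C, x * y * x⁻¹ * y⁻¹ ∈ Z}
    {n : ℕ} {x : L} : x ∈ torsionMod C Z hab n ↔ x ∈ C ∧ (QuotientGroup.mk' Z x) ^ n = 1 := Iff.rfl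

instance torsionMod_normal (C Z : Subgroup L) [C.Normal] [Z.Normal]
    (hab : ∀ x ∈ C, ∀ y ∈ C, x * y * x⁻¹ * y⁻¹ ∈ Z) (n : ℕ) : (torsionMod C Z hab n).Normal := by
  constructor
  rintro x ⟨hx, hx'⟩ g
  refine ⟨‹C.Normal›.conj_mem x hx g, ?_⟩
  rw [map_mul, map_mul, map_inv, conj_pow, hx']
  simp

/-- The elements central modulo `M` in `H`. -/
def centralMod (H M : Subgroup L) [M.Normal] : Subgroup L where
  carrier := {x | x ∈ H ∧ ∀ y ∈ H, x * y * x⁻¹ * y⁻¹ ∈ M}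
  one_mem' := ⟨H.one_mem, fun y _ => by simp⟩
  mul_mem' := by
    rintro x x' ⟨hx, hx2⟩ ⟨hx', hx'2⟩
    refine ⟨H.mul_mem hx hx', fun y hy => ?_⟩
    have h1 := ‹M.Normal›.conj_mem _ (hx'2 y hy) x
    have h2 := M.mul_mem h1 (hx2 y hy)
    convert h2 using 1
    group
  inv_mem' := by
    rintro x ⟨hx, hx2⟩
    refine ⟨H.inv_mem hx, fun y hy => ?_⟩
    have h1 := ‹M.Normal›.conj_mem _ (M.inv_mem (hx2 y hy)) x⁻¹
    convert h1 using 1
    group

theorem mem_centralMod {H M : Subgroup L} [M.Normal] {x : L} :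
    x ∈ centralMod H M ↔ x ∈ H ∧ ∀ y ∈ H, x * y * x⁻¹ * y⁻¹ ∈ M := Iff.rfl

instance centralMod_normal (H M : Subgroup L) [hH : H.Normal] [hM : M.Normal] :
    (centralMod H M).Normal := by
  constructor
  rintro x ⟨hx, hx2⟩ g
  refine ⟨hH.conj_mem x hx g, fun y hy => ?_⟩
  have h1 := hM.conj_mem _ (hx2 (g⁻¹ * y * g) (by simpa using hH.conj_mem y hy g⁻¹)) g
  convert h1 using 1
  group

/-- The group theoretic input for a nilpotent kernel with two primes. -/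
theorem exists_step (H : Subgroup L) [hH : H.Normal] (hnil : Group.IsNilpotent H) (hC1 : ⁅H, H⁆ ≠ ⊥)
    {p q : ℕ} (hp : p.Prime) (hq : q.Prime) (hpq : p ≠ q) (hpd : p ∣ (⁅H, H⁆).relIndex H)
    (hqd : q ∣ (⁅H, H⁆).relIndex H) :
    ∃ M D : Subgroup L, M.Normal ∧ D.Normal ∧ M < ⁅H, H⁆ ∧ ⁅H, H⁆ < D ∧ D ≤ H ∧
      ∀ x ∈ D, ∀ y ∈ H, x * y * x⁻¹ * y⁻¹ ∈ M := by
  classical
  set C : Subgroup L := ⁅H, H⁆ with hC
  have hCH : C ≤ H := Subgroup.commutator_le_self H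
  set Z : Subgroup L := ⁅C, H⁆ with hZ
  have hZC : Z ≤ C := Subgroup.commutator_le_left C H
  have hZne : ¬ C ≤ Z := by
    intro h1
    apply hC1
    haveI := hnil
    have h2 := Cfsg.Agent.Lib.OddOrder.PF6Group.le_of_le_commutator_sup_subgroup ⊥ C H bot_le hCH
      inferInstance (by simpa [hZ] using h1)
    exact le_bot_iff.mp h2
  have hab : ∀ x ∈ C, ∀ y ∈ C, x * y * x⁻¹ * y⁻¹ ∈ Z := fun x hx y hy =>
    Subgroup.commutator_mem_commutator hx (hCH hy)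
  -- the prime `s`
  set π := QuotientGroup.mk' Z with hπ
  set c := Nat.card (C.map π) with hc
  have hcard : c = Z.relIndex C := Cfsg.Agent.Lib.OddOrder.PF6Group2.card_map_mk' Z C hZC
  have hc1 : c ≠ 1 := by
    rw [hcard]
    intro h
    exact hZne (Subgroup.relIndex_eq_one.mp h)
  have hc0 : c ≠ 0 := Nat.card_pos.ne'
  set s := c.minFac with hs
  have hsp : s.Prime := Nat.minFac_prime hc1
  haveI : Fact s.Prime := ⟨hsp⟩
  obtain ⟨j, n, hn, hjn⟩ := Nat.exists_eq_pow_mul_and_not_dvd hc0 s hsp.ne_one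
  set M : Subgroup L := torsionMod C Z hab n with hM
  have hMC : M ≤ C := fun x hx => hx.1
  have hZM : Z ≤ M := fun x hx => ⟨hZC hx, by
    have h1 : QuotientGroup.mk' Z x = 1 := (QuotientGroup.eq_one_iff x).mpr hx
    rw [h1, one_pow]⟩
  have hpow : ∀ x ∈ C, x ^ (s ^ j) ∈ M := by
    intro x hx
    refine ⟨C.pow_mem hx _, ?_⟩
    have h1 : π x ∈ C.map π := Subgroup.mem_map_of_mem π hx
    have h2 : (⟨π x, h1⟩ : C.map π) ^ c = 1 := pow_card_eq_one'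
    have h3 : (π x) ^ c = 1 := by
      have := congrArg Subtype.val h2
      simpa using this
    rw [map_pow, ← pow_mul, ← hjn]
    exact h3
  have hMne : M ≠ C := by
    intro hMC'
    have hsd : s ∣ Nat.card (C.map π) := Nat.minFac_dvd c
    obtain ⟨⟨g, hg⟩, ho⟩ := exists_prime_orderOf_dvd_card' s hsd
    obtain ⟨x, hx, rfl⟩ := Subgroup.mem_map.mp hg
    have hxM : x ∈ M := hMC' ▸ hx
    have h1 : (π x) ^ n = 1 := hxM.2
    have h2 : orderOf (π x) = s := by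
      rw [← ho, Subgroup.orderOf_mk]
    apply hn
    rw [← h2]
    exact orderOf_dvd_of_pow_eq_one h1
  haveI hMn : M.Normal := inferInstance
  set D : Subgroup L := centralMod H M with hD
  have hCD : C ≤ D := fun x hx => ⟨hCH hx, fun y hy =>
    hZM (Subgroup.commutator_mem_commutator hx hy)⟩
  refine ⟨M, D, hMn, inferInstance, lt_of_le_of_ne hMC hMne, lt_of_le_of_ne hCD ?_, fun x hx => hx.1,
    fun x hx => hx.2⟩
  -- a central element of another prime order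
  obtain ⟨r, hr, hrs, hrd⟩ : ∃ r : ℕ, r.Prime ∧ r ≠ s ∧ r ∣ C.relIndex H := by
    by_cases h : p = s
    · exact ⟨q, hq, fun h' => hpq (h.trans h'.symm), hqd⟩
    · exact ⟨p, hp, h, hpd⟩
  haveI : Fact r.Prime := ⟨hr⟩
  haveI := hnil
  have hQcard : Nat.card (↥H ⧸ M.subgroupOf H) = M.relIndex H := rfl
  have hrQ : r ∣ Nat.card (↥H ⧸ M.subgroupOf H) := by
    rw [hQcard, ← Subgroup.relIndex_mul_relIndex M C H hMC hCH]
    exact hrd.trans (Nat.dvd_mul_left _ _)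
  obtain ⟨P⟩ : Nonempty (Sylow r (↥H ⧸ M.subgroupOf H)) := inferInstance
  have hQn : Group.IsNilpotent (↥H ⧸ M.subgroupOf H) := inferInstance
  have hSyl : ∀ (p : ℕ) (_hp : Fact p.Prime) (P : Sylow p (↥H ⧸ M.subgroupOf H)),
      (↑P : Subgroup (↥H ⧸ M.subgroupOf H)).Normal :=
    ((Group.isNilpotent_of_finite_tfae (G := ↥H ⧸ M.subgroupOf H)).out 0 3).mp hQn
  haveI hPn : (P : Subgroup (↥H ⧸ M.subgroupOf H)).Normal := hSyl r ⟨hr⟩ P
  have hPne : (P : Subgroup (↥H ⧸ M.subgroupOf H)) ≠ ⊥ := P.ne_bot_of_dvd_card hrQ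
  obtain ⟨z, hzP, hz1, hzc⟩ := Cfsg.Agent.Lib.OddOrder.PF6Sib2.exists_central_of_nilpotent _ hPne
  obtain ⟨k, hk⟩ := P.isPGroup' ⟨z, hzP⟩
  have hzk : z ^ (r ^ k) = 1 := by
    have := congrArg Subtype.val hk
    simpa using this
  obtain ⟨h, rfl⟩ := QuotientGroup.mk_surjective z
  intro hCD'
  have hhD : (h : L) ∈ D := by
    refine ⟨h.2, fun y hy => ?_⟩
    have h1 := hzc (QuotientGroup.mk (⟨y, hy⟩ : H))
    have h2 : (QuotientGroup.mk (h * ⟨y, hy⟩ * h⁻¹ * (⟨y, hy⟩ : H)⁻¹) :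
        ↥H ⧸ M.subgroupOf H) = 1 := by
      simp only [QuotientGroup.mk_mul, QuotientGroup.mk_inv]
      rw [h1]
      group
    have h3 := (QuotientGroup.eq_one_iff _).mp h2
    simpa [Subgroup.mem_subgroupOf] using h3
  have hhC : (h : L) ∈ C := hCD' ▸ hhD
  have h3 : ((QuotientGroup.mk h : ↥H ⧸ M.subgroupOf H)) ^ (s ^ j) = 1 := by
    rw [← QuotientGroup.mk_pow, QuotientGroup.eq_one_iff]
    rw [Subgroup.mem_subgroupOf]
    simpa using hpow _ hhC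
  apply hz1
  have h4 : orderOf (QuotientGroup.mk h : ↥H ⧸ M.subgroupOf H) ∣ r ^ k := orderOf_dvd_of_pow_eq_one hzk
  have h5 : orderOf (QuotientGroup.mk h : ↥H ⧸ M.subgroupOf H) ∣ s ^ j := orderOf_dvd_of_pow_eq_one h3
  have h6 : Nat.Coprime (r ^ k) (s ^ j) := Nat.Coprime.pow _ _ ((Nat.coprime_primes hr hsp).mpr hrs)
  have h7 := Nat.eq_one_of_dvd_coprimes h6 h4 h5
  exact orderOf_eq_one_iff.mp h7

end Cfsg.Agent.Lib.OddOrder.PF6Feit3
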