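import Mathlib

/-!
# Bender-Glauberman Theorem C: the final contradiction in the field configuration.

We work in an abstract system `Sys`: a group `G`, a field `F` of characteristic `p`, an additive
embedding `T : F → G`, a group `U` acting on `T(F)` through multiplication by `ψ`, an abelian
group `Q` without `p`-torsion, an element `y ∈ Q`, and the conjugate `t = y T(1) y⁻¹`, normalizing
both `Q` and `U`.
-/

set_option autoImplicit false
set_option linter.unusedSectionVars false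
set_option linter.style.haveILetI false

namespace Cfsg.Agent.Lib.OddOrder.ThmC

variable {G F : Type*} [Group G] [Field F]

/-- The configuration of Theorem C. -/
structure Sys (T : F → G) (U Q : Subgroup G) (ψ : G → F) (y t : G) (p N : ℕ) : Prop where
  hp : p.Prime
  char : CharP F p
  T_add : ∀ c d, T (c + d) = T c * T d
  T_one : ∀ c, T c = 1 → c = 0
  conj_T : ∀ u ∈ U, ∀ c, u * T c * u⁻¹ = T (ψ u * c)
  ψ_mul : ∀ u ∈ U, ∀ v ∈ U, ψ (u * v) = ψ u * ψ v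
  ψ_inj : Set.InjOn ψ (U : Set G)
  ψ_ne : ∀ u ∈ U, ψ u ≠ 0
  ψ_surj : ∀ c : F, c ^ N = 1 → ∃ u ∈ U, ψ u = c
  U_pow : ∀ u ∈ U, u ^ N = 1
  cop_p : Nat.Coprime N p
  cop_p1 : Nat.Coprime N (p - 1)
  pow_N : ∀ c : F, c ≠ 0 → c ^ ((p - 1) * N) = 1
  Q_comm : ∀ a ∈ Q, ∀ b ∈ Q, a * b = b * a
  Q_p : ∀ a ∈ Q, a ^ p = 1 → a = 1
  y_Q : y ∈ Q
  t_eq : t = y * T 1 * y⁻¹
  t_Q : t ∈ Subgroup.normalizer (Q : Set G)
  t_U : t ∈ Subgroup.normalizer (U : Set G)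
  span : ∀ S : AddSubgroup F, (∀ e : F, e ^ N = 1 → ∀ c ∈ S, e * c ∈ S) → ∀ c ∈ S, c ≠ 0 → S = ⊤
  fp : ∀ c : F, c ^ p = c → ∃ m : ℕ, m < p ∧ (m : F) = c
  exists_ne : ∃ u ∈ U, ψ u ≠ 1

/-- The block `P_i`: conjugate of `T` by `t ^ i`. -/
def Ti (T : F → G) (t : G) (i : ℕ) (c : F) : G := t ^ i * T c * (t ^ i)⁻¹

/-- The action of `U` on the block `P_i`. -/
def Chi (ψ : G → F) (t : G) (i : ℕ) (u : G) : F := ψ ((t ^ i)⁻¹ * u * t ^ i)

/-- The conjugates of `y`. -/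
def Yy (y t : G) (i : ℕ) : G := t ^ i * y * (t ^ i)⁻¹

namespace Sys

variable {T : F → G} {U Q : Subgroup G} {ψ : G → F} {y t : G} {p N : ℕ}
variable (h : Sys T U Q ψ y t p N)

include h

theorem T_zero : T 0 = 1 := by
  have := h.T_add 0 0
  simpa using this

theorem T_neg (c : F) : T (-c) = (T c)⁻¹ := by
  apply eq_inv_of_mul_eq_one_left
  rw [← h.T_add, neg_add_cancel, h.T_zero]

theorem T_comm (c d : F) : T c * T d = T d * T c := by
  rw [← h.T_add, add_comm, h.T_add]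

theorem T_sub (c d : F) : T (c - d) = T c * (T d)⁻¹ := by
  rw [sub_eq_add_neg, h.T_add, h.T_neg]

theorem T_nat_mul (m : ℕ) (c : F) : T ((m : F) * c) = T c ^ m := by
  induction m with
  | zero => simp [h.T_zero]
  | succ m ih =>
    rw [Nat.cast_succ, add_mul, one_mul, h.T_add, ih, pow_succ]

theorem T_nat (m : ℕ) : T (m : F) = T 1 ^ m := by
  have := h.T_nat_mul m 1
  simpa using this

theorem T_pow_p (c : F) : T c ^ p = 1 := by
  rw [← h.T_nat_mul]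
  haveI := h.char
  rw [CharP.cast_eq_zero, zero_mul, h.T_zero]

theorem t_pow (m : ℕ) : t ^ m = y * T 1 ^ m * y⁻¹ := by
  rw [h.t_eq, conj_pow]

theorem t_pow_p : t ^ p = 1 := by
  rw [h.t_pow, h.T_pow_p]
  group

theorem T1_pow (m : ℕ) : T 1 ^ m = y⁻¹ * t ^ m * y := by
  rw [h.t_pow]
  group

/-! ### Powers of `t` normalize `U` and `Q`. -/

theorem tpow_U (i : ℕ) {u : G} (hu : u ∈ U) : t ^ i * u * (t ^ i)⁻¹ ∈ U := by
  have h1 : t ^ i ∈ Subgroup.normalizer (U : Set G) := pow_mem h.t_U i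
  exact (Subgroup.mem_normalizer_iff.1 h1 u).1 hu

theorem tpow_U' (i : ℕ) {u : G} (hu : u ∈ U) : (t ^ i)⁻¹ * u * t ^ i ∈ U := by
  have h1 : t ^ i ∈ Subgroup.normalizer (U : Set G) := pow_mem h.t_U i
  exact (Subgroup.mem_normalizer_iff''.1 h1 u).1 hu

theorem tpow_Q (i : ℕ) {u : G} (hu : u ∈ Q) : t ^ i * u * (t ^ i)⁻¹ ∈ Q := by
  have h1 : t ^ i ∈ Subgroup.normalizer (Q : Set G) := pow_mem h.t_Q i
  exact (Subgroup.mem_normalizer_iff.1 h1 u).1 hu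

theorem Y_mem (i : ℕ) : Yy y t i ∈ Q := h.tpow_Q i h.y_Q

omit h in
theorem Y_shift (i j : ℕ) : t ^ j * Yy y t i * (t ^ j)⁻¹ = Yy y t (j + i) := by
  unfold Yy
  rw [pow_add]
  group

theorem Y_periodic (i : ℕ) : Yy y t (i + p) = Yy y t i := by
  unfold Yy
  rw [pow_add, h.t_pow_p, mul_one]

omit h in
theorem Y_zero : Yy y t 0 = y := by
  simp [Yy]

/-! ### The blocks. -/

omit h in
theorem Ti_zero_index (c : F) : Ti T t 0 c = T c := by
  simp [Ti]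

theorem Ti_add (i : ℕ) (c d : F) : Ti T t i (c + d) = Ti T t i c * Ti T t i d := by
  unfold Ti
  rw [h.T_add]
  group

theorem Ti_zero (i : ℕ) : Ti T t i (0 : F) = 1 := by
  unfold Ti
  rw [h.T_zero]
  group

theorem Ti_neg (i : ℕ) (c : F) : Ti T t i (-c) = (Ti T t i c)⁻¹ := by
  unfold Ti
  rw [h.T_neg]
  group

theorem Ti_sub (i : ℕ) (c d : F) : Ti T t i (c - d) = Ti T t i c * (Ti T t i d)⁻¹ := by
  rw [sub_eq_add_neg, h.Ti_add, h.Ti_neg]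

theorem Ti_eq_one (i : ℕ) {c : F} (hc : Ti T t i c = 1) : c = 0 := by
  apply h.T_one
  unfold Ti at hc
  have h1 : T c = (t ^ i)⁻¹ * (t ^ i * T c * (t ^ i)⁻¹) * t ^ i := by group
  rw [h1, hc]
  group

theorem Ti_pow_p (i : ℕ) (c : F) : Ti T t i c ^ p = 1 := by
  unfold Ti
  rw [conj_pow, h.T_pow_p]
  group

omit h in
theorem Ti_shift (i j : ℕ) (c : F) : t ^ j * Ti T t i c * (t ^ j)⁻¹ = Ti T t (j + i) c := by
  unfold Ti
  rw [pow_add]
  group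

omit h in
theorem Ti_unshift (i j : ℕ) (c : F) : (t ^ j)⁻¹ * Ti T t (j + i) c * t ^ j = Ti T t i c := by
  unfold Ti
  rw [pow_add]
  group

/-- `P` is abelian, hence so is each block. -/
theorem Ti_comm (i : ℕ) (c d : F) : Ti T t i c * Ti T t i d = Ti T t i d * Ti T t i c := by
  rw [← h.Ti_add, add_comm, h.Ti_add]

/-! ### The action of `U` on blocks. -/

theorem conj_Ti (i : ℕ) {u : G} (hu : u ∈ U) (c : F) :
    u * Ti T t i c * u⁻¹ = Ti T t i (Chi ψ t i u * c) := by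
  have hv := h.tpow_U' i hu
  unfold Ti Chi
  rw [← h.conj_T _ hv]
  group

theorem Chi_mul (i : ℕ) {u v : G} (hu : u ∈ U) (hv : v ∈ U) :
    Chi ψ t i (u * v) = Chi ψ t i u * Chi ψ t i v := by
  unfold Chi
  rw [← h.ψ_mul _ (h.tpow_U' i hu) _ (h.tpow_U' i hv)]
  congr 1
  group

theorem ψ_one : ψ 1 = 1 := by
  have h1 := h.ψ_mul 1 U.one_mem 1 U.one_mem
  have h2 := h.ψ_ne 1 U.one_mem
  rw [mul_one] at h1
  exact (mul_eq_left₀ h2).1 h1.symm

theorem Chi_one (i : ℕ) : Chi ψ t i 1 = 1 := by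
  unfold Chi
  have : (t ^ i)⁻¹ * 1 * t ^ i = 1 := by group
  rw [this, h.ψ_one]

omit h in
theorem Chi_zero (u : G) : Chi ψ t 0 u = ψ u := by
  simp [Chi]

theorem Chi_pow (i : ℕ) {u : G} (hu : u ∈ U) (m : ℕ) : Chi ψ t i (u ^ m) = Chi ψ t i u ^ m := by
  induction m with
  | zero => simp [h.Chi_one]
  | succ m ih =>
    rw [pow_succ, h.Chi_mul i (pow_mem hu m) hu, ih, pow_succ]

theorem Chi_ne (i : ℕ) {u : G} (hu : u ∈ U) : Chi ψ t i u ≠ 0 :=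
  h.ψ_ne _ (h.tpow_U' i hu)

theorem Chi_inv (i : ℕ) {u : G} (hu : u ∈ U) : Chi ψ t i u⁻¹ = (Chi ψ t i u)⁻¹ := by
  apply eq_inv_of_mul_eq_one_left
  rw [← h.Chi_mul i (inv_mem hu) hu, inv_mul_cancel, h.Chi_one]

theorem Chi_pow_N (i : ℕ) {u : G} (hu : u ∈ U) : Chi ψ t i u ^ N = 1 := by
  rw [← h.Chi_pow i hu, h.U_pow u hu, h.Chi_one]

theorem Chi_surj (i : ℕ) {c : F} (hc : c ^ N = 1) : ∃ u ∈ U, Chi ψ t i u = c := by
  obtain ⟨v, hv, hvc⟩ := h.ψ_surj c hc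
  refine ⟨t ^ i * v * (t ^ i)⁻¹, h.tpow_U i hv, ?_⟩
  unfold Chi
  rw [← hvc]
  congr 1
  group

theorem Chi_inj (i : ℕ) {u v : G} (hu : u ∈ U) (hv : v ∈ U) (huv : Chi ψ t i u = Chi ψ t i v) :
    u = v := by
  have := h.ψ_inj (h.tpow_U' i hu) (h.tpow_U' i hv) huv
  have h2 := congrArg (fun g => t ^ i * g * (t ^ i)⁻¹) this
  simpa [mul_assoc] using h2

/-! ### Powers in terms of `Y`. -/

/-- The basic formula. -/
theorem Ti_nat (i m : ℕ) : Ti T t i (m : F) = (Yy y t i)⁻¹ * Yy y t (i + m) * t ^ m := by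
  unfold Ti Yy
  rw [h.T_nat, h.T1_pow, pow_add]
  group

theorem T_nat' (m : ℕ) : T (m : F) = y⁻¹ * Yy y t m * t ^ m := by
  rw [h.T_nat, h.T1_pow]
  unfold Yy
  group

theorem Q_comm' {a b c : G} (ha : a ∈ Q) (hb : b ∈ Q) (hc : c ∈ Q) :
    b⁻¹ * c * a⁻¹ * b = a⁻¹ * c := by
  have h1 : b⁻¹ * c * a⁻¹ * b = b⁻¹ * (c * a⁻¹ * b) := by group
  have h2 : c * a⁻¹ * b = b * (c * a⁻¹) :=
    h.Q_comm _ (Q.mul_mem hc (Q.inv_mem ha)) _ hb
  rw [h1, h2]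
  have h3 : c * a⁻¹ = a⁻¹ * c := h.Q_comm _ hc _ (Q.inv_mem ha)
  rw [h3]
  group

/-- The identity `x_a ^ (a + d) = x_(a+d) ^ a * x_0 ^ d`. -/
theorem block_identity (a d : ℕ) :
    Ti T t a ((a + d : ℕ) : F) = Ti T t (a + d) (a : F) * T (d : F) := by
  rw [h.Ti_nat, h.Ti_nat, h.T_nat']
  have h1 : Yy y t (a + d) * (t ^ a) = t ^ a * Yy y t d := by
    have := Y_shift (y := y) (t := t) d a
    rw [← this]
    group
  have h2 : t ^ a * y⁻¹ = (Yy y t a)⁻¹ * t ^ a := by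
    unfold Yy
    group
  have hmain : (Yy y t (a + d))⁻¹ * Yy y t (a + d + a) * t ^ a * (y⁻¹ * Yy y t d * t ^ d) =
      (Yy y t (a + d))⁻¹ * Yy y t (a + d + a) * (Yy y t a)⁻¹ * Yy y t (a + d) * t ^ (a + d) := by
    rw [pow_add]
    calc _ = (Yy y t (a + d))⁻¹ * Yy y t (a + d + a) * (t ^ a * y⁻¹) * Yy y t d * t ^ d := by group
      _ = (Yy y t (a + d))⁻¹ * Yy y t (a + d + a) * (Yy y t a)⁻¹ * (t ^ a * Yy y t d) * t ^ d := by
        rw [h2]; group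
      _ = _ := by
        rw [← h1]; group
  rw [hmain, h.Q_comm' (h.Y_mem a) (h.Y_mem (a + d)) (h.Y_mem (a + d + a))]
  have h3 : a + d + a = a + (a + d) := by omega
  rw [h3]

/-- The identity, conjugated by `u ∈ U`. -/
theorem block_identity_u (a d : ℕ) {u : G} (hu : u ∈ U) :
    Ti T t a (Chi ψ t a u * ((a + d : ℕ) : F)) =
      Ti T t (a + d) (Chi ψ t (a + d) u * (a : F)) * T (ψ u * (d : F)) := by
  have h1 : u * Ti T t a ((a + d : ℕ) : F) * u⁻¹ =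
      u * (Ti T t (a + d) (a : F) * T (d : F)) * u⁻¹ := by rw [h.block_identity]
  rw [h.conj_Ti a hu] at h1
  have h2 : u * (Ti T t (a + d) (a : F) * T (d : F)) * u⁻¹ =
      (u * Ti T t (a + d) (a : F) * u⁻¹) * (u * T (d : F) * u⁻¹) := by group
  rw [h2, h.conj_Ti _ hu, h.conj_T u hu] at h1
  exact h1

end Sys

end Cfsg.Agent.Lib.OddOrder.ThmC
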