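import Cfsg.Agent.Lib.OddOrder.ThmC

/-!
# Theorem C, second part: the intersection lemma and the key lemma.
-/

set_option autoImplicit false
set_option linter.unusedSectionVars false
set_option linter.style.haveILetI false

namespace Cfsg.Agent.Lib.OddOrder.ThmC

variable {G F : Type*} [Group G] [Field F]

namespace Sys

variable {T : F → G} {U Q : Subgroup G} {ψ : G → F} {y t : G} {p N : ℕ}
variable (h : Sys T U Q ψ y t p N)

include h

/-- An element of `U` of `p`-power order is trivial. -/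
theorem U_p {w : G} (hw : w ∈ U) {m : ℕ} (hm : w ^ (p ^ m) = 1) : w = 1 := by
  have h1 := h.U_pow w hw
  have h2 := (pow_gcd_eq_one (a := w)).2 ⟨h1, hm⟩
  have h3 : Nat.gcd N (p ^ m) = 1 := Nat.Coprime.pow_right m h.cop_p
  rw [h3, pow_one] at h2
  exact h2

/-- `t` does not normalize `T(F)`. -/
theorem not_normalizes {d : F} (hd : t * T 1 * t⁻¹ = T d) : False := by
  have x_eq : T 1 = y⁻¹ * Yy y t 1 * t := by
    have := h.T_nat' 1
    simpa using this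
  have x1_eq : t * T 1 * t⁻¹ = (Yy y t 1)⁻¹ * Yy y t 2 * t := by
    have := h.Ti_nat 1 1
    simpa [Ti] using this
  have hmem : t * T 1 * t⁻¹ * (T 1)⁻¹ ∈ Q := by
    have h1 : t * T 1 * t⁻¹ * (T 1)⁻¹ =
        (Yy y t 1)⁻¹ * Yy y t 2 * (Yy y t 1)⁻¹ * y := by
      rw [x1_eq]
      nth_rewrite 1 [x_eq]
      group
    rw [h1]
    exact Q.mul_mem (Q.mul_mem (Q.mul_mem (Q.inv_mem (h.Y_mem 1)) (h.Y_mem 2))
      (Q.inv_mem (h.Y_mem 1))) h.y_Q
  have h1 : t * T 1 * t⁻¹ * (T 1)⁻¹ = T (d - 1) := by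
    rw [hd, h.T_sub]
  have h2 : t * T 1 * t⁻¹ * (T 1)⁻¹ = 1 := by
    apply h.Q_p _ hmem
    rw [h1, h.T_pow_p]
  have hcomm : t * T 1 = T 1 * t := by
    have h3 : t * T 1 * t⁻¹ = T 1 := by
      rwa [mul_inv_eq_one] at h2
    rwa [mul_inv_eq_iff_eq_mul] at h3
  have hrQ : T 1 * t⁻¹ ∈ Q := by
    have h1 : T 1 * t⁻¹ = y⁻¹ * Yy y t 1 := by
      nth_rewrite 1 [x_eq]
      group
    rw [h1]
    exact Q.mul_mem (Q.inv_mem h.y_Q) (h.Y_mem 1)
  have hr : T 1 * t⁻¹ = 1 := by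
    apply h.Q_p _ hrQ
    have hc : Commute (T 1) t⁻¹ := (Commute.inv_right (show Commute (T 1) t from hcomm.symm))
    rw [hc.mul_pow, h.T_pow_p, inv_pow, h.t_pow_p]
    simp
  have hxt : T 1 = t := by
    rwa [mul_inv_eq_one] at hr
  obtain ⟨u, hu, hu1⟩ := h.exists_ne
  have hv : T 1 * u * (T 1)⁻¹ * u⁻¹ ∈ U := by
    apply U.mul_mem _ (U.inv_mem hu)
    rw [hxt]
    exact (Subgroup.mem_normalizer_iff.1 h.t_U u).1 hu
  have hv2 : T 1 * u * (T 1)⁻¹ * u⁻¹ = T (1 - ψ u) := by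
    have h3 : u * T (-1) * u⁻¹ = T (ψ u * (-1)) := h.conj_T u hu (-1)
    rw [h.T_neg] at h3
    have h4 : T 1 * u * (T 1)⁻¹ * u⁻¹ = T 1 * (u * (T 1)⁻¹ * u⁻¹) := by group
    rw [h4, h3, ← h.T_add]
    congr 1
    ring
  have hv3 : T 1 * u * (T 1)⁻¹ * u⁻¹ = 1 := by
    apply h.U_p hv (m := 1)
    rw [hv2, pow_one, h.T_pow_p]
  rw [hv2] at hv3
  have := h.T_one _ hv3
  apply hu1
  exact (sub_eq_zero.1 this).symm

/-- The intersection lemma: `P_k ∩ P_0 = 1` for `p ∤ k`. -/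
theorem inter {k : ℕ} (hk : ¬ p ∣ k) {c d : F} (hcd : Ti T t k c = T d) : d = 0 := by
  by_contra hd
  have hc : c ≠ 0 := by
    rintro rfl
    rw [h.Ti_zero] at hcd
    exact hd (h.T_one d hcd.symm)
  let S : AddSubgroup F :=
    { carrier := {c | ∃ d, Ti T t k c = T d}
      add_mem' := by
        rintro a b ⟨d₁, h₁⟩ ⟨d₂, h₂⟩
        exact ⟨d₁ + d₂, by rw [h.Ti_add, h₁, h₂, h.T_add]⟩
      zero_mem' := ⟨0, by rw [h.Ti_zero, h.T_zero]⟩
      neg_mem' := by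
        rintro a ⟨d₁, h₁⟩
        exact ⟨-d₁, by rw [h.Ti_neg, h₁, h.T_neg]⟩ }
  have hS : S = ⊤ := by
    refine h.span S ?_ c ⟨d, hcd⟩ hc
    rintro e he a ⟨d₁, h₁⟩
    obtain ⟨u, hu, hue⟩ := h.Chi_surj k he
    refine ⟨ψ u * d₁, ?_⟩
    rw [← hue, ← h.conj_Ti k hu, h₁, h.conj_T u hu]
  have hall : ∀ c, ∃ d, Ti T t k c = T d := by
    intro c
    have : c ∈ S := by rw [hS]; trivial
    exact this
  have hpow : ∀ e c, ∃ d, Ti T t (k * e) c = T d := by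
    intro e
    induction e with
    | zero => intro c; exact ⟨c, by simp [Ti]⟩
    | succ e ih =>
      intro c
      obtain ⟨d₁, h₁⟩ := ih c
      obtain ⟨d₂, h₂⟩ := hall d₁
      refine ⟨d₂, ?_⟩
      have h3 : k * (e + 1) = k + k * e := by ring
      rw [h3, ← Ti_shift, h₁]
      exact h₂
  have hcop : Nat.Coprime k p := ((Nat.Prime.coprime_iff_not_dvd h.hp).2 hk).symm
  obtain ⟨e, -, he⟩ := Nat.exists_mul_mod_eq_one_of_coprime hcop h.hp.one_lt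
  obtain ⟨d₁, h₁⟩ := hpow e 1
  have h2 : t ^ (k * e) = t := by
    rw [pow_eq_pow_mod _ h.t_pow_p, he, pow_one]
  unfold Ti at h₁
  rw [h2] at h₁
  exact h.not_normalizes h₁

/-- Powers of `π w` with `π ∈ P_k`, `w ∈ U`. -/
theorem pow_block_mul {k : ℕ} {C e : F} {w : G} (hw : w ∈ U) (hC : T C = Ti T t k e * w) (m : ℕ) :
    ∃ e', T C ^ m = Ti T t k e' * w ^ m := by
  induction m with
  | zero => exact ⟨0, by simp [h.Ti_zero]⟩
  | succ m ih =>
    obtain ⟨e₁, h₁⟩ := ih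
    refine ⟨e₁ + Chi ψ t k (w ^ m) * e, ?_⟩
    rw [pow_succ, h₁, hC, h.Ti_add, ← h.conj_Ti k (pow_mem hw m), pow_succ]
    group

/-- The key lemma: if `(T_k c')⁻¹ T c` normalizes `U`, `p ∤ k`, then `c = 0`. -/
theorem key {k : ℕ} (hk : ¬ p ∣ k) {c c' : F}
    (hν : (Ti T t k c')⁻¹ * T c ∈ Subgroup.normalizer (U : Set G)) : c = 0 := by
  obtain ⟨u, hu, hu1⟩ := h.exists_ne
  set ν := (Ti T t k c')⁻¹ * T c with hνdef
  set w := u * (ν * u⁻¹ * ν⁻¹) with hwdef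
  have hw : w ∈ U :=
    U.mul_mem hu ((Subgroup.mem_normalizer_iff.1 hν u⁻¹).1 (U.inv_mem hu))
  have huν : u * ν * u⁻¹ = w * ν := by
    rw [hwdef]; group
  have h1 : u * ν * u⁻¹ = (Ti T t k (Chi ψ t k u * c'))⁻¹ * T (ψ u * c) := by
    rw [← h.conj_Ti k hu, ← h.conj_T u hu, hνdef]
    group
  -- `T((ψ u - 1) c) = T_k(χ c') w (T_k c')⁻¹`
  have h2 : T ((ψ u - 1) * c) =
      Ti T t k (Chi ψ t k u * c') * (w * (Ti T t k c')⁻¹) := by
    have h3 : (ψ u - 1) * c = ψ u * c - c := by ring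
    rw [h3, h.T_sub]
    have h4 : (Ti T t k (Chi ψ t k u * c'))⁻¹ * T (ψ u * c) = w * ((Ti T t k c')⁻¹ * T c) := by
      rw [← h1, huν]
    have h5 : T (ψ u * c) = Ti T t k (Chi ψ t k u * c') * (w * ((Ti T t k c')⁻¹ * T c)) := by
      rw [← h4]; group
    rw [h5]
    group
  -- move `w` to the right
  have h3 : T ((ψ u - 1) * c) =
      Ti T t k (Chi ψ t k u * c' - Chi ψ t k w * c') * w := by
    rw [h2, h.Ti_sub, ← h.conj_Ti k hw]
    group
  obtain ⟨e', he'⟩ := h.pow_block_mul hw h3 p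
  rw [h.T_pow_p] at he'
  have h4 : w ^ p = Ti T t k (-e') := by
    rw [h.Ti_neg]
    exact (inv_eq_of_mul_eq_one_right he'.symm).symm
  have hw1 : w = 1 := by
    apply h.U_p hw (m := 2)
    rw [pow_two, pow_mul, h4, h.Ti_pow_p]
  rw [hw1, mul_one] at h3
  have h5 := h.inter hk h3.symm
  rcases mul_eq_zero.1 h5 with h6 | h6
  · exact absurd (sub_eq_zero.1 h6) hu1
  · exact h6

end Sys

end Cfsg.Agent.Lib.OddOrder.ThmC
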