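import Cfsg.Agent.Lib.OddOrder.ThmC2

/-!
# Theorem C, third part: relations with natural coefficients.
-/

set_option autoImplicit false
set_option linter.unusedSectionVars false
set_option linter.style.haveILetI false

namespace Cfsg.Agent.Lib.OddOrder.ThmC

theorem prod_shift {A : Type*} [CommGroup A] {p : ℕ} (f : ℕ → A) (hf : ∀ i, f (i + p) = f i)
    (c : ℕ) : ∏ i ∈ Finset.range p, f (c + i) = ∏ i ∈ Finset.range p, f i := by
  induction c with
  | zero => simp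
  | succ c ih =>
    rw [← ih]
    have h1 := Finset.prod_range_succ (fun i => f (c + i)) p
    have h2 := Finset.prod_range_succ' (fun i => f (c + i)) p
    have h3 : f (c + p) = f (c + 0) := by rw [hf, add_zero]
    rw [h1, h3] at h2
    have h4 := mul_right_cancel h2
    rw [h4]
    apply Finset.prod_congr rfl
    intro i _
    congr 1
    ring

theorem W_pow {A : Type*} [CommGroup A] {p : ℕ} (f : ℕ → A) (hf : ∀ i, f (i + p) = f i)
    (a b c d : ℕ) (W : A)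
    (hW : ∀ i, (f (a + i))⁻¹ * f (b + i) * f (c + i) * (f (d + i))⁻¹ = W) : W ^ p = 1 := by
  have h1 : W ^ p = ∏ _i ∈ Finset.range p, W := by simp
  have h2 : ∏ _i ∈ Finset.range p, W =
      ∏ i ∈ Finset.range p, ((f (a + i))⁻¹ * f (b + i) * f (c + i) * (f (d + i))⁻¹) :=
    Finset.prod_congr rfl fun i _ => (hW i).symm
  rw [h1, h2]
  simp only [Finset.prod_mul_distrib, Finset.prod_inv_distrib]
  rw [prod_shift f hf a, prod_shift f hf b, prod_shift f hf c, prod_shift f hf d]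
  simp

theorem comm_aux {A : Type*} [CommGroup A] {a b c d e g h : A}
    (H : a⁻¹ * e = b⁻¹ * g * c⁻¹ * d) : b⁻¹ * h * g * e⁻¹ = a⁻¹ * c * h * d⁻¹ := by
  have H' := congrArg Additive.ofMul H
  apply Additive.ofMul.injective
  simp only [ofMul_mul, ofMul_inv] at H' ⊢
  rw [← sub_eq_zero] at H' ⊢
  rw [← neg_eq_zero, ← H']
  abel

variable {G F : Type*} [Group G] [Field F]

namespace Sys

variable {T : F → G} {U Q : Subgroup G} {ψ : G → F} {y t : G} {p N : ℕ}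
variable (h : Sys T U Q ψ y t p N)

include h

omit h in
theorem Y_succ (i : ℕ) : t * Yy y t i * t⁻¹ = Yy y t (i + 1) := by
  unfold Yy
  rw [pow_succ']
  group

/-- The element `W`, fixed by `t`, is trivial. -/
theorem W_trivial {a b c d : ℕ}
    (hfix : t * ((Yy y t a)⁻¹ * Yy y t b * Yy y t c * (Yy y t d)⁻¹) * t⁻¹ =
      (Yy y t a)⁻¹ * Yy y t b * Yy y t c * (Yy y t d)⁻¹) :
    (Yy y t a)⁻¹ * Yy y t b * Yy y t c * (Yy y t d)⁻¹ = 1 := by
  letI : CommGroup Q :=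
    { (inferInstance : Group Q) with
      mul_comm := fun a b => Subtype.ext (h.Q_comm a a.2 b b.2) }
  let f : ℕ → Q := fun i => ⟨Yy y t i, h.Y_mem i⟩
  have hf : ∀ i, f (i + p) = f i := fun i => Subtype.ext (h.Y_periodic i)
  let Wq : Q := (f a)⁻¹ * f b * f c * (f d)⁻¹
  have hstep : ∀ i, (f (a + i))⁻¹ * f (b + i) * f (c + i) * (f (d + i))⁻¹ = Wq := by
    intro i
    induction i with
    | zero => rfl
    | succ i ih =>
      apply Subtype.ext
      have h1 : (((f (a + i))⁻¹ * f (b + i) * f (c + i) * (f (d + i))⁻¹ : Q) : G) = (Wq : G) := by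
        rw [ih]
      have h2 : (Yy y t (a + i))⁻¹ * Yy y t (b + i) * Yy y t (c + i) * (Yy y t (d + i))⁻¹ =
          (Yy y t a)⁻¹ * Yy y t b * Yy y t c * (Yy y t d)⁻¹ := h1
      show (Yy y t (a + (i + 1)))⁻¹ * Yy y t (b + (i + 1)) * Yy y t (c + (i + 1)) *
        (Yy y t (d + (i + 1)))⁻¹ = (Yy y t a)⁻¹ * Yy y t b * Yy y t c * (Yy y t d)⁻¹
      simp only [← add_assoc]
      rw [← Y_succ, ← Y_succ, ← Y_succ, ← Y_succ]
      rw [← hfix]
      rw [← h2]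
      group
  have hW := W_pow f hf a b c d Wq hstep
  have h3 : ((Wq ^ p : Q) : G) = 1 := by rw [hW]; rfl
  have h4 : Wq = 1 := by
    apply Subtype.ext
    apply h.Q_p _ Wq.2
    rw [← Subgroup.coe_pow]
    exact h3
  exact congrArg Subtype.val h4

theorem t_pow_pow (n : ℕ) : (t ^ n) ^ p = 1 := by
  rw [← pow_mul, mul_comm, pow_mul, h.t_pow_p, one_pow]

/-- A relation with natural coefficients: the `natural` lemma. -/
theorem natural {n k l : ℕ} (hk1 : 1 ≤ k) (hkp : k < p) (hl : 1 ≤ l)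
    (hrel : Ti T t 1 (n : F) = Ti T t 2 (k : F) * T (l : F)) : (k : F) = 1 := by
  rw [h.Ti_nat, h.Ti_nat, h.T_nat'] at hrel
  have h1 : t ^ k * y⁻¹ * Yy y t l = (Yy y t k)⁻¹ * Yy y t (k + l) * t ^ k := by
    unfold Yy
    rw [pow_add]
    group
  have h2 : (Yy y t 2)⁻¹ * Yy y t (2 + k) * t ^ k * (y⁻¹ * Yy y t l * t ^ l) =
      ((Yy y t 2)⁻¹ * Yy y t (2 + k) * ((Yy y t k)⁻¹ * Yy y t (k + l))) * t ^ (k + l) := by
    rw [pow_add]
    calc _ = (Yy y t 2)⁻¹ * Yy y t (2 + k) * (t ^ k * y⁻¹ * Yy y t l) * t ^ l := by group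
      _ = _ := by rw [h1]; group
  rw [h2] at hrel
  set A := (Yy y t 1)⁻¹ * Yy y t (1 + n) with hA
  set B := (Yy y t 2)⁻¹ * Yy y t (2 + k) * ((Yy y t k)⁻¹ * Yy y t (k + l)) with hB
  have hAQ : A ∈ Q := Q.mul_mem (Q.inv_mem (h.Y_mem _)) (h.Y_mem _)
  have hBQ : B ∈ Q := Q.mul_mem (Q.mul_mem (Q.inv_mem (h.Y_mem _)) (h.Y_mem _))
    (Q.mul_mem (Q.inv_mem (h.Y_mem _)) (h.Y_mem _))
  have hr : t ^ n * (t ^ (k + l))⁻¹ = 1 := by
    apply h.Q_p
    · have h3 : t ^ n * (t ^ (k + l))⁻¹ = A⁻¹ * B := by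
        have h4 : t ^ n = A⁻¹ * (B * t ^ (k + l)) := by
          rw [← hrel]; group
        rw [h4]; group
      rw [h3]
      exact Q.mul_mem (Q.inv_mem hAQ) hBQ
    · have hc : Commute (t ^ n) (t ^ (k + l))⁻¹ :=
        Commute.inv_right ((Commute.refl t).pow_pow n (k + l))
      rw [hc.mul_pow, inv_pow, h.t_pow_pow, h.t_pow_pow]
      simp
  have htn : t ^ n = t ^ (k + l) := by
    rwa [mul_inv_eq_one] at hr
  have hAB : A = B := by
    rw [htn] at hrel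
    exact mul_right_cancel hrel
  have hY : Yy y t (1 + n) = Yy y t (1 + (k + l)) := by
    unfold Yy
    rw [pow_add, pow_add t 1 (k + l), htn]
  -- the fixed element
  have hfix : t * ((Yy y t 1)⁻¹ * Yy y t k * Yy y t (k + 1) * (Yy y t (k + l))⁻¹) * t⁻¹ =
      (Yy y t 1)⁻¹ * Yy y t k * Yy y t (k + 1) * (Yy y t (k + l))⁻¹ := by
    letI : CommGroup Q :=
      { (inferInstance : Group Q) with
        mul_comm := fun a b => Subtype.ext (h.Q_comm a a.2 b b.2) }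
    let f : ℕ → Q := fun i => ⟨Yy y t i, h.Y_mem i⟩
    have hE : (f 1)⁻¹ * f (1 + (k + l)) = (f 2)⁻¹ * f (2 + k) * (f k)⁻¹ * f (k + l) := by
      apply Subtype.ext
      show (Yy y t 1)⁻¹ * Yy y t (1 + (k + l)) =
        (Yy y t 2)⁻¹ * Yy y t (2 + k) * (Yy y t k)⁻¹ * Yy y t (k + l)
      rw [← hY]
      calc _ = A := rfl
        _ = B := hAB
        _ = _ := by rw [hB]; group
    have h3 := comm_aux (h := f (k + 1)) hE
    have h4 : (Yy y t 2)⁻¹ * Yy y t (k + 1) * Yy y t (2 + k) * (Yy y t (1 + (k + l)))⁻¹ =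
        (Yy y t 1)⁻¹ * Yy y t k * Yy y t (k + 1) * (Yy y t (k + l))⁻¹ :=
      congrArg Subtype.val h3
    have e1 : Yy y t 2 = t * Yy y t 1 * t⁻¹ := by rw [Y_succ]
    have e2 : Yy y t (k + 1) = t * Yy y t k * t⁻¹ := by rw [Y_succ]
    have e3 : Yy y t (2 + k) = t * Yy y t (k + 1) * t⁻¹ := by
      rw [Y_succ]; congr 1; omega
    have e4 : Yy y t (1 + (k + l)) = t * Yy y t (k + l) * t⁻¹ := by
      rw [Y_succ]; congr 1; omega
    have gen : ∀ a c h d : G, (t * a * t⁻¹)⁻¹ * (t * c * t⁻¹) * (t * h * t⁻¹) * (t * d * t⁻¹)⁻¹ =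
        t * (a⁻¹ * c * h * d⁻¹) * t⁻¹ := by
      intros; group
    rw [← gen, ← e1, ← e2, ← e3, ← e4]
    exact h4
  have hW := h.W_trivial hfix
  have hZ : (Yy y t 1)⁻¹ * Yy y t k = (Yy y t (k + 1))⁻¹ * Yy y t (k + l) := by
    have h3 : (Yy y t 1)⁻¹ * Yy y t k * Yy y t (k + 1) = Yy y t (k + l) := by
      rwa [mul_inv_eq_one] at hW
    have h4 : (Yy y t 1)⁻¹ * Yy y t k * Yy y t (k + 1) =
        Yy y t (k + 1) * ((Yy y t 1)⁻¹ * Yy y t k) :=
      h.Q_comm _ (Q.mul_mem (Q.inv_mem (h.Y_mem _)) (h.Y_mem _)) _ (h.Y_mem _)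
    rw [← h3, h4]
    group
  obtain ⟨k', rfl⟩ : ∃ k', k = k' + 1 := ⟨k - 1, by omega⟩
  obtain ⟨l', rfl⟩ : ∃ l', l = l' + 1 := ⟨l - 1, by omega⟩
  have h5 : Ti T t 1 (k' : F) = ((Yy y t 1)⁻¹ * Yy y t (k' + 1)) * t ^ k' := by
    rw [h.Ti_nat, add_comm 1 k']
  have h6 : Ti T t (k' + 1 + 1) (l' : F) =
      ((Yy y t (k' + 1 + 1))⁻¹ * Yy y t (k' + 1 + (l' + 1))) * t ^ l' := by
    rw [h.Ti_nat]
    congr 3
    omega
  rw [← hZ] at h6
  have h7 : (Ti T t (k' + 1 + 1) (l' : F))⁻¹ * Ti T t 1 (k' : F) = (t ^ l')⁻¹ * t ^ k' := by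
    rw [h5, h6]
    group
  have h8 : (Ti T t (k' + 1) (l' : F))⁻¹ * T (k' : F) =
      t⁻¹ * ((t ^ l')⁻¹ * t ^ k') * t := by
    rw [← h7]
    have e1 := Ti_unshift (T := T) (t := t) (k' + 1) 1 (l' : F)
    have e2 := Ti_unshift (T := T) (t := t) 0 1 (k' : F)
    rw [Ti_zero_index] at e2
    simp only [add_zero, pow_one, add_comm 1 (k' + 1)] at e1 e2
    rw [← e1, ← e2]
    group
  have hν : (Ti T t (k' + 1) (l' : F))⁻¹ * T (k' : F) ∈ Subgroup.normalizer (U : Set G) := by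
    rw [h8]
    exact mul_mem (mul_mem (inv_mem h.t_U) (mul_mem (inv_mem (pow_mem h.t_U _))
      (pow_mem h.t_U _))) h.t_U
  have hk : ¬ p ∣ k' + 1 := Nat.not_dvd_of_pos_of_lt (by omega) hkp
  have := h.key hk hν
  push_cast
  rw [this, zero_add]

end Sys

end Cfsg.Agent.Lib.OddOrder.ThmC
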