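import Cfsg.Agent.Lib.OddOrder.ThmC3

/-!
# Theorem C, fourth part: the alignment lemma, the three-term relation and the bound.
-/

set_option autoImplicit false
set_option linter.unusedSectionVars false
set_option linter.style.haveILetI false

namespace Cfsg.Agent.Lib.OddOrder.ThmC

theorem frob_fix {F : Type*} [Field F] {a M : F} (ha : a ≠ 0) {p : ℕ} (hp : p ≠ 0)
    (hM : M ^ p = a ^ (p - 1) * M) : (a⁻¹ * M) ^ p = a⁻¹ * M := by
  have h1 : a ^ p = a ^ (p - 1) * a := (pow_sub_one_mul hp a).symm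
  have h2 : a ^ (p - 1) ≠ 0 := pow_ne_zero _ ha
  rw [mul_pow, inv_pow, hM, h1]
  field_simp

variable {G F : Type*} [Group G] [Field F]

namespace Sys

variable {T : F → G} {U Q : Subgroup G} {ψ : G → F} {y t : G} {p N : ℕ}
variable (h : Sys T U Q ψ y t p N)

include h

theorem conj_rel {u : G} (hu : u ∈ U) {M n O : F}
    (h1 : Ti T t 2 (-M) * Ti T t 1 n = T O) :
    Ti T t 2 (-(Chi ψ t 2 u * M)) * Ti T t 1 (Chi ψ t 1 u * n) = T (ψ u * O) := by
  have h2 : u * (Ti T t 2 (-M) * Ti T t 1 n) * u⁻¹ = u * T O * u⁻¹ := by rw [h1]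
  have h3 : u * (Ti T t 2 (-M) * Ti T t 1 n) * u⁻¹ =
      (u * Ti T t 2 (-M) * u⁻¹) * (u * Ti T t 1 n * u⁻¹) := by group
  rw [h3, h.conj_Ti 2 hu, h.conj_Ti 1 hu, h.conj_T u hu, mul_neg] at h2
  exact h2

theorem natCast_pow_p (m : ℕ) : (m : F) ^ p = m := by
  haveI := h.char
  haveI : Fact p.Prime := ⟨h.hp⟩
  induction m with
  | zero => simp [h.hp.ne_zero]
  | succ m ih =>
    rw [Nat.cast_succ, add_pow_char, ih, one_pow]

/-- Alignment: a relation compatible with Frobenius has coefficient in the norm one group. -/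
theorem align {M n O : F} (h1 : Ti T t 2 (-M) * Ti T t 1 n = T O)
    (h2 : Ti T t 2 (-(M ^ p)) * Ti T t 1 (n ^ p) = T (O ^ p)) (hM : M ≠ 0) (hO : O ≠ 0) :
    M ^ N = 1 := by
  have hp0 := h.hp.ne_zero
  obtain ⟨s, hs, hsO⟩ := h.ψ_surj (O ^ (p - 1)) (by rw [← pow_mul]; exact h.pow_N O hO)
  have hsO2 : ψ s * O = O ^ p := by rw [hsO, pow_sub_one_mul hp0]
  have h3 := h.conj_rel hs h1
  rw [hsO2, ← h2] at h3
  -- comparing the two relations
  have h4 : Ti T t 2 (M ^ p - Chi ψ t 2 s * M) = Ti T t 1 (n ^ p - Chi ψ t 1 s * n) := by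
    have e1 : M ^ p - Chi ψ t 2 s * M = -(-(M ^ p)) + -(Chi ψ t 2 s * M) := by ring
    rw [e1, h.Ti_add, h.Ti_neg, h.Ti_sub]
    have e2 : Ti T t 2 (-(Chi ψ t 2 s * M)) =
        Ti T t 2 (-(M ^ p)) * Ti T t 1 (n ^ p) * (Ti T t 1 (Chi ψ t 1 s * n))⁻¹ := by
      rw [← h3]; group
    rw [e2]
    group
  have h5 : Ti T t 1 (M ^ p - Chi ψ t 2 s * M) = T (n ^ p - Chi ψ t 1 s * n) := by
    have e1 := Ti_unshift (T := T) (t := t) 1 1 (M ^ p - Chi ψ t 2 s * M)
    have e2 := Ti_unshift (T := T) (t := t) 0 1 (n ^ p - Chi ψ t 1 s * n)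
    rw [Ti_zero_index] at e2
    rw [← e1, ← e2, h4]
  have h6 : n ^ p - Chi ψ t 1 s * n = 0 := h.inter (k := 1) h.hp.not_dvd_one h5
  have h7 : M ^ p - Chi ψ t 2 s * M = 0 := by
    apply h.Ti_eq_one 1
    rw [h5, h6, h.T_zero]
  -- a root of `s`
  have hcop : Nat.Coprime (p - 1) (orderOf s) :=
    Nat.Coprime.coprime_dvd_right (orderOf_dvd_of_pow_eq_one (h.U_pow s hs)) h.cop_p1.symm
  obtain ⟨m, hm⟩ := exists_pow_eq_self_of_coprime hcop
  set w := s ^ m with hw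
  have hwU : w ∈ U := pow_mem hs m
  have hws : w ^ (p - 1) = s := by
    rw [hw, ← pow_mul, mul_comm, pow_mul, hm]
  have hχ : ∀ i, Chi ψ t i s = Chi ψ t i w ^ (p - 1) := by
    intro i
    rw [← h.Chi_pow i hwU, hws]
  have hA : ((Chi ψ t 2 w)⁻¹ * M) ^ p = (Chi ψ t 2 w)⁻¹ * M :=
    frob_fix (h.Chi_ne 2 hwU) hp0 (by rw [← hχ]; exact sub_eq_zero.1 h7)
  have hn : ((Chi ψ t 1 w)⁻¹ * n) ^ p = (Chi ψ t 1 w)⁻¹ * n :=
    frob_fix (h.Chi_ne 1 hwU) hp0 (by rw [← hχ]; exact sub_eq_zero.1 h6)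
  have hB : ((ψ w)⁻¹ * O) ^ p = (ψ w)⁻¹ * O := by
    apply frob_fix (h.ψ_ne w hwU) hp0
    have e1 : ψ w = Chi ψ t 0 w := (Chi_zero w).symm
    rw [← hsO2, e1, ← hχ, Chi_zero]
  -- conjugate by `w⁻¹`
  have h8 := h.conj_rel (inv_mem hwU) h1
  rw [h.Chi_inv 2 hwU, h.Chi_inv 1 hwU] at h8
  have hψinv : ψ w⁻¹ = (ψ w)⁻¹ := by
    have e1 := h.Chi_inv 0 hwU
    rwa [Chi_zero, Chi_zero] at e1
  rw [hψinv] at h8
  obtain ⟨A, hAp, hAe⟩ := h.fp _ hA
  obtain ⟨a, hap, hae⟩ := h.fp _ hn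
  obtain ⟨B, hBp, hBe⟩ := h.fp _ hB
  rw [← hAe, ← hae, ← hBe] at h8
  have hA1 : 1 ≤ A := by
    rw [Nat.one_le_iff_ne_zero]
    rintro rfl
    have h9 : (Chi ψ t 2 w)⁻¹ * M ≠ 0 := mul_ne_zero (inv_ne_zero (h.Chi_ne 2 hwU)) hM
    exact h9 (by rw [← hAe]; simp)
  have hB1 : 1 ≤ B := by
    rw [Nat.one_le_iff_ne_zero]
    rintro rfl
    have h9 : (ψ w)⁻¹ * O ≠ 0 := mul_ne_zero (inv_ne_zero (h.ψ_ne w hwU)) hO
    exact h9 (by rw [← hBe]; simp)
  have hrel : Ti T t 1 (a : F) = Ti T t 2 (A : F) * T (B : F) := by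
    rw [← h8, h.Ti_neg]; group
  have hAone := h.natural hA1 hAp hB1 hrel
  rw [hAone] at hAe
  have hχ0 := h.Chi_ne 2 hwU
  have hM2 : M = Chi ψ t 2 w := by
    field_simp at hAe
    exact hAe.symm
  rw [hM2]
  exact h.Chi_pow_N 2 hwU

/-- The three-term relation, in blocks `k + 2`, `k + 1`, `k`. -/
theorem threeTerm_aux {u v : G} (hu : u ∈ U) (hv : v ∈ U) (huv : ψ u + ψ v = 2) (k : ℕ) :
    Ti T t (k + 2) (-(((k : F) + 1) * Chi ψ t (k + 2) u - k)) *
        Ti T t (k + 1) (((k : F) + 2) * Chi ψ t (k + 1) u - k * Chi ψ t (k + 1) v) =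
      Ti T t k (((k : F) + 2) - ((k : F) + 1) * Chi ψ t k v) := by
  have b1 := h.block_identity_u (k + 1) 1 hu
  have b2 := h.block_identity_u k 1 hv
  have b3 := h.block_identity_u k 2 U.one_mem
  rw [h.Chi_one, h.Chi_one, h.ψ_one] at b3
  have c1 : ((k + 1 + 1 : ℕ) : F) = (k : F) + 2 := by push_cast; ring
  have c2 : ((k + 1 : ℕ) : F) = (k : F) + 1 := by push_cast; ring
  have c3 : ((k + 2 : ℕ) : F) = (k : F) + 2 := by push_cast; ring
  rw [c1, c2] at b1
  rw [c2] at b2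
  rw [c3] at b3
  simp only [Nat.cast_one, mul_one, one_mul, Nat.cast_ofNat] at b1 b2 b3
  have hT : T 2 = T (ψ u) * T (ψ v) := by rw [← h.T_add, huv]
  rw [hT] at b3
  have e1 : -(((k : F) + 1) * Chi ψ t (k + 2) u - k) =
      (k : F) + -(Chi ψ t (k + 2) u * ((k : F) + 1)) := by ring
  have e2 : ((k : F) + 2) * Chi ψ t (k + 1) u - k * Chi ψ t (k + 1) v =
      Chi ψ t (k + 1) u * ((k : F) + 2) - Chi ψ t (k + 1) v * k := by ring
  have e3 : ((k : F) + 2) - ((k : F) + 1) * Chi ψ t k v =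
      ((k : F) + 2) - Chi ψ t k v * ((k : F) + 1) := by ring
  rw [e1, e2, e3, h.Ti_add, h.Ti_neg, h.Ti_sub, h.Ti_sub, b3, b2]
  have b1' : Ti T t (k + 1) (Chi ψ t (k + 1) u * ((k : F) + 2)) =
      Ti T t (k + 2) (Chi ψ t (k + 2) u * ((k : F) + 1)) * T (ψ u) := b1
  rw [b1']
  group

/-- The three-term relation, in blocks `2`, `1`, `0`. -/
theorem threeTerm {u v : G} (hu : u ∈ U) (hv : v ∈ U) (huv : ψ u + ψ v = 2) (k : ℕ) :
    Ti T t 2 (-(((k : F) + 1) * Chi ψ t (k + 2) u - k)) *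
        Ti T t 1 (((k : F) + 2) * Chi ψ t (k + 1) u - k * Chi ψ t (k + 1) v) =
      T (((k : F) + 2) - ((k : F) + 1) * Chi ψ t k v) := by
  have e := h.threeTerm_aux hu hv huv k
  set a := -(((k : F) + 1) * Chi ψ t (k + 2) u - k)
  set b := ((k : F) + 2) * Chi ψ t (k + 1) u - k * Chi ψ t (k + 1) v
  set c := ((k : F) + 2) - ((k : F) + 1) * Chi ψ t k v
  calc Ti T t 2 a * Ti T t 1 b
      = ((t ^ k)⁻¹ * Ti T t (k + 2) a * t ^ k) * ((t ^ k)⁻¹ * Ti T t (k + 1) b * t ^ k) := by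
        rw [Ti_unshift, Ti_unshift]
    _ = (t ^ k)⁻¹ * (Ti T t (k + 2) a * Ti T t (k + 1) b) * t ^ k := by group
    _ = (t ^ k)⁻¹ * Ti T t k c * t ^ k := by rw [e]
    _ = T c := by
        have e4 := Ti_unshift (T := T) (t := t) 0 k c
        rwa [add_zero, Ti_zero_index] at e4

theorem ψ_pow {u : G} (hu : u ∈ U) (m : ℕ) : ψ (u ^ m) = ψ u ^ m := by
  have := h.Chi_pow 0 hu m
  rwa [Chi_zero, Chi_zero] at this

/-- Coefficients in the prime field do not vanish. -/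
theorem coef_ne {a b c : F} (ha : a ^ p = a) (hb : b ^ p = b) (hc : c ^ N = 1) (hc0 : c ≠ 0)
    (hab : a ≠ b) (hab2 : a = 0 → b ≠ 0) : a * c - b ≠ 0 := by
  intro h0
  have h1 : a * c = b := sub_eq_zero.1 h0
  have ha0 : a ≠ 0 := by
    rintro rfl
    exact hab2 rfl (by rw [← h1, zero_mul])
  have hp0 := h.hp.ne_zero
  have h2 : c = a⁻¹ * b := by
    rw [← h1]; field_simp
  have h3 : c ^ p = c := by
    rw [h2, mul_pow, inv_pow, ha, hb]
  have h4 : c ^ (p - 1) = 1 := by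
    have h5 : c ^ (p - 1) * c = c := by rw [pow_sub_one_mul hp0, h3]
    exact (mul_eq_right₀ hc0).1 h5
  have h5 := (pow_gcd_eq_one (a := c)).2 ⟨hc, h4⟩
  rw [h.cop_p1.gcd_eq_one, pow_one] at h5
  rw [h5, mul_one] at h1
  exact hab h1

/-- The main consequence of the three-term relation. -/
theorem core {u v : G} (hu : u ∈ U) (hv : v ∈ U) (huv : ψ u + ψ v = 2) (k : ℕ) :
    (((k : F) + 1) * Chi ψ t (k + 2) u - k) ^ N = 1 := by
  haveI := h.char
  haveI : Fact p.Prime := ⟨h.hp⟩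
  have hK : (k : F) ^ p = k := h.natCast_pow_p k
  have h2p : (2 : F) ^ p = 2 := by
    have := h.natCast_pow_p (F := F) 2
    simpa using this
  have hK1 : ((k : F) + 1) ^ p = (k : F) + 1 := by
    rw [add_pow_char, hK, one_pow]
  have hK2 : ((k : F) + 2) ^ p = (k : F) + 2 := by
    rw [add_pow_char, hK, h2p]
  have huv' : ψ (u ^ p) + ψ (v ^ p) = 2 := by
    rw [h.ψ_pow hu, h.ψ_pow hv, ← add_pow_char, huv, h2p]
  have h1 := h.threeTerm hu hv huv k
  have h2 := h.threeTerm (pow_mem hu p) (pow_mem hv p) huv' k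
  rw [h.Chi_pow _ hu, h.Chi_pow _ hu, h.Chi_pow _ hv, h.Chi_pow _ hv] at h2
  refine h.align h1 ?_ ?_ ?_
  · have e1 : (((k : F) + 1) * Chi ψ t (k + 2) u - k) ^ p =
        ((k : F) + 1) * Chi ψ t (k + 2) u ^ p - k := by
      rw [sub_pow_char, mul_pow, hK1, hK]
    have e2 : (((k : F) + 2) * Chi ψ t (k + 1) u - k * Chi ψ t (k + 1) v) ^ p =
        ((k : F) + 2) * Chi ψ t (k + 1) u ^ p - k * Chi ψ t (k + 1) v ^ p := by
      rw [sub_pow_char, mul_pow, mul_pow, hK2, hK]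
    have e3 : (((k : F) + 2) - ((k : F) + 1) * Chi ψ t k v) ^ p =
        ((k : F) + 2) - ((k : F) + 1) * Chi ψ t k v ^ p := by
      rw [sub_pow_char, mul_pow, hK1, hK2]
    rw [e1, e2, e3]
    exact h2
  · exact h.coef_ne hK1 hK (h.Chi_pow_N _ hu) (h.Chi_ne _ hu) (by simp)
      (by
        intro h3 h4
        rw [h4] at h3
        simp at h3)
  · have := h.coef_ne hK1 hK2 (h.Chi_pow_N k hv) (h.Chi_ne k hv)
      (by
        intro h3
        have := add_left_cancel h3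
        have h5 : (1 : F) + 1 = 2 := by norm_num
        rw [← h5] at this
        simp at this)
      (by
        intro h3 h4
        have h5 : (k : F) + 2 = ((k : F) + 1) + 1 := by ring
        rw [h5, h3] at h4
        simp at h4)
    intro h3
    apply this
    linear_combination -h3

/-- The twist by `D`. -/
theorem twist {D : ℕ} (hD : (D : F) ≠ 0) : Sys (fun c => T ((D : F) * c)) U Q ψ y (t ^ D) p N where
  hp := h.hp
  char := h.char
  T_add := fun c d => by rw [mul_add, h.T_add]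
  T_one := fun c hc => by
    have := h.T_one _ hc
    exact (mul_eq_zero.1 this).resolve_left hD
  conj_T := fun u hu c => by
    show u * T ((D : F) * c) * u⁻¹ = T ((D : F) * (ψ u * c))
    rw [h.conj_T u hu, mul_left_comm]
  ψ_mul := h.ψ_mul
  ψ_inj := h.ψ_inj
  ψ_ne := h.ψ_ne
  ψ_surj := h.ψ_surj
  U_pow := h.U_pow
  cop_p := h.cop_p
  cop_p1 := h.cop_p1
  pow_N := h.pow_N
  Q_comm := h.Q_comm
  Q_p := h.Q_p
  y_Q := h.y_Q
  t_eq := by
    show t ^ D = y * T ((D : F) * 1) * y⁻¹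
    rw [mul_one, h.T_nat, h.t_pow]
  t_Q := pow_mem h.t_Q D
  t_U := pow_mem h.t_U D
  span := h.span
  fp := h.fp
  exists_ne := h.exists_ne

/-- For each `k` with `k + 2 < p`, the twist gives a norm one element. -/
theorem core_twisted {u v : G} (hu : u ∈ U) (hv : v ∈ U) (huv : ψ u + ψ v = 2) {k : ℕ}
    (hk : k + 2 < p) :
    (((k : F) + 1) * Chi ψ t 1 u - k) ^ N = 1 := by
  have hcop : Nat.Coprime (k + 2) p :=
    ((Nat.Prime.coprime_iff_not_dvd h.hp).2 (Nat.not_dvd_of_pos_of_lt (by omega) hk)).symm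
  obtain ⟨D, -, hD⟩ := Nat.exists_mul_mod_eq_one_of_coprime hcop h.hp.one_lt
  have hD0 : (D : F) ≠ 0 := by
    intro h0
    haveI := h.char
    have h1 : p ∣ D := (CharP.cast_eq_zero_iff F p D).1 h0
    have h2 : (k + 2) * D % p = 0 := Nat.mod_eq_zero_of_dvd (Dvd.dvd.mul_left h1 _)
    omega
  have h1 := (h.twist hD0).core hu hv huv k
  have h2 : (t ^ D) ^ (k + 2) = t ^ 1 := by
    rw [← pow_mul, mul_comm, pow_eq_pow_mod _ h.t_pow_p, hD]
  have h3 : Chi ψ (t ^ D) (k + 2) u = Chi ψ t 1 u := by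
    unfold Chi
    rw [h2]
  rwa [h3] at h1

end Sys

/-- The polynomial bound. -/
theorem poly_bound {F : Type*} [Field F] {p q : ℕ} [Fact p.Prime] [CharP F p] (hq : 0 < q) {W : F}
    (hW : W ≠ 0)
    (H : ∀ m : ℕ, m < p - 1 → (1 + (m : F) * W) ^ (∑ i ∈ Finset.range q, p ^ i) = 1) :
    p - 1 ≤ q := by
  classical
  open Polynomial in
  let P : F[X] := ∏ i ∈ Finset.range q, (C (W ^ (p ^ i)) * X + C 1)
  open Polynomial in
  have hdeg : P.natDegree = q := by
    have h1 : ∀ i ∈ Finset.range q, (C (W ^ (p ^ i)) * X + C 1 : F[X]) ≠ 0 := by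
      intro i _ h0
      have := natDegree_linear (a := W ^ (p ^ i)) (b := (1 : F)) (pow_ne_zero _ hW)
      rw [h0] at this
      simp at this
    rw [natDegree_prod _ _ h1]
    have h2 : ∀ i ∈ Finset.range q, (C (W ^ (p ^ i)) * X + C 1 : F[X]).natDegree = 1 := by
      intro i _
      exact natDegree_linear (pow_ne_zero _ hW)
    rw [Finset.sum_congr rfl h2]
    simp
  open Polynomial in
  let g : F[X] := P - C 1
  open Polynomial in
  have hgdeg : g.natDegree = q := by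
    show (P - C 1).natDegree = q
    rw [natDegree_sub_C, hdeg]
  open Polynomial in
  have hg0 : g ≠ 0 := by
    intro h0
    rw [h0] at hgdeg
    simp at hgdeg
    omega
  open Polynomial in
  have hroot : ∀ m : ℕ, m < p - 1 → (m : F) ∈ g.roots.toFinset := by
    intro m hm
    rw [Multiset.mem_toFinset, mem_roots hg0, IsRoot.def]
    show eval (m : F) (P - C 1) = 0
    rw [eval_sub, eval_C, sub_eq_zero]
    show eval (m : F) (∏ i ∈ Finset.range q, (C (W ^ (p ^ i)) * X + C 1)) = 1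
    rw [eval_prod]
    have h1 : ∀ i ∈ Finset.range q, eval (m : F) (C (W ^ (p ^ i)) * X + C 1) =
        (1 + (m : F) * W) ^ (p ^ i) := by
      intro i _
      rw [add_pow_char_pow, one_pow, mul_pow]
      have h2 : ∀ j : ℕ, (m : F) ^ (p ^ j) = m := by
        have h3 : ((m : F)) ^ p = m := by
          have := map_natCast (frobenius F p) m
          rwa [frobenius_def] at this
        intro j
        induction j with
        | zero => simp
        | succ j ih =>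
          rw [pow_succ, pow_mul, ih, h3]
      rw [h2 i]
      simp
      ring
    rw [Finset.prod_congr rfl h1, Finset.prod_pow_eq_pow_sum]
    exact H m hm
  have hinj : Set.InjOn (fun m : ℕ => (m : F)) (Finset.range (p - 1) : Set ℕ) := by
    intro a ha b hb hab
    apply CharP.natCast_injOn_Iio F p _ _ hab
    · have := Finset.mem_range.1 (Finset.mem_coe.1 ha)
      have hp := (Fact.out : p.Prime).one_lt
      simp
      omega
    · have := Finset.mem_range.1 (Finset.mem_coe.1 hb)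
      have hp := (Fact.out : p.Prime).one_lt
      simp
      omega
  have hsub : (Finset.range (p - 1)).image (fun m : ℕ => (m : F)) ⊆ g.roots.toFinset := by
    intro x hx
    obtain ⟨m, hm, rfl⟩ := Finset.mem_image.1 hx
    exact hroot m (Finset.mem_range.1 hm)
  calc p - 1 = ((Finset.range (p - 1)).image (fun m : ℕ => (m : F))).card := by
        rw [Finset.card_image_of_injOn hinj, Finset.card_range]
    _ ≤ g.roots.toFinset.card := Finset.card_le_card hsub
    _ ≤ Multiset.card g.roots := Multiset.toFinset_card_le _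
    _ ≤ g.natDegree := Polynomial.card_roots' g
    _ = q := hgdeg

/-- The bound from the system. -/
theorem Sys.bound {T : F → G} {U Q : Subgroup G} {ψ : G → F} {y t : G} {p q : ℕ}
    (h : Sys T U Q ψ y t p (∑ i ∈ Finset.range q, p ^ i)) (hq : 0 < q)
    {u v : G} (hu : u ∈ U) (hv : v ∈ U) (huv : ψ u + ψ v = 2) (hu1 : ψ u ≠ 1) : p - 1 ≤ q := by
  haveI := h.char
  haveI : Fact p.Prime := ⟨h.hp⟩
  have hX : Chi ψ t 1 u - 1 ≠ 0 := by
    intro h0
    have h1 : Chi ψ t 1 u = Chi ψ t 1 1 := by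
      rw [h.Chi_one]; exact sub_eq_zero.1 h0
    have h2 := h.Chi_inj 1 hu U.one_mem h1
    apply hu1
    rw [h2, h.ψ_one]
  apply poly_bound hq hX
  intro m hm
  rcases m with _ | k
  · simp
  · have h1 := h.core_twisted hu hv huv (k := k) (by omega)
    have e : 1 + ((k + 1 : ℕ) : F) * (Chi ψ t 1 u - 1) = ((k : F) + 1) * Chi ψ t 1 u - k := by
      push_cast; ring
    rw [e]
    exact h1

end Cfsg.Agent.Lib.OddOrder.ThmC
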